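import Mathlib

/-!
# General lemmas for the order-seven local structure in groups of Janko-four type
-/

namespace CfsgLib.J4Seven39

open Subgroup

variable {X : Type*} [Group X]

theorem card_centralizer_conj (g x : X) :
    Nat.card (centralizer ({g * x * g⁻¹} : Set X)) = Nat.card (centralizer ({x} : Set X)) := by
  have h : centralizer ({g * x * g⁻¹} : Set X)
      = (centralizer ({x} : Set X)).map (MulAut.conj g).toMonoidHom := by
    rw [Subgroup.map_equiv_eq_comap_symm']
    ext y
    simp only [mem_comap, MulEquiv.coe_toMonoidHom, MulAut.conj_symm_apply,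
      mem_centralizer_singleton_iff]
    constructor <;> intro e
    · calc g⁻¹ * y * g * x = g⁻¹ * (y * (g * x * g⁻¹)) * g := by group
      _ = g⁻¹ * (g * x * g⁻¹ * y) * g := by rw [e]
      _ = x * (g⁻¹ * y * g) := by group
    · calc y * (g * x * g⁻¹) = g * (g⁻¹ * y * g * x) * g⁻¹ := by group
      _ = g * (x * (g⁻¹ * y * g)) * g⁻¹ := by rw [e]
      _ = g * x * g⁻¹ * y := by group
  rw [h]
  exact Nat.card_congr (Subgroup.equivMapOfInjective _ _ (MulAut.conj g).injective).toEquiv.symm

theorem card_centralizer_isConj {x y : X} (h : IsConj x y) :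
    Nat.card (centralizer ({y} : Set X)) = Nat.card (centralizer ({x} : Set X)) := by
  obtain ⟨g, rfl⟩ := isConj_iff.mp h
  exact card_centralizer_conj g x

/-- If `L ∩ C(w)` has index two in `L`, the product of two elements of `L` outside `C(w)`
centralises `w`. -/
theorem commute_of_index_two [Finite X] {L : Subgroup X} {w : X}
    (h : 2 * Nat.card ↥(L ⊓ centralizer ({w} : Set X)) = Nat.card L)
    {a b : X} (ha : a ∈ L) (hb : b ∈ L) (ha' : ¬ Commute a w) (hb' : ¬ Commute b w) :
    Commute (a * b) w := by
  have hcard : Nat.card ↥((centralizer ({w} : Set X)).subgroupOf L)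
      = Nat.card ↥(L ⊓ centralizer ({w} : Set X)) := by
    rw [inf_comm, ← inf_subgroupOf_right]
    exact Nat.card_congr (Subgroup.subgroupOfEquivOfLe inf_le_right).toEquiv
  have hidx : ((centralizer ({w} : Set X)).subgroupOf L).index = 2 := by
    have hm := Subgroup.card_mul_index ((centralizer ({w} : Set X)).subgroupOf L)
    rw [hcard] at hm
    have hpos : 0 < Nat.card ↥(L ⊓ centralizer ({w} : Set X)) := Nat.card_pos
    nlinarith
  have := (mul_mem_iff_of_index_two hidx (a := ⟨a, ha⟩) (b := ⟨b, hb⟩))
  simp only [mem_subgroupOf, Subgroup.coe_mul, mem_centralizer_singleton_iff] at this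
  exact this.mpr (iff_of_false ha' hb')

/-- Orbit counting for conjugation by a subgroup. -/
theorem card_eq_card_inf_mul_orbit [Finite X] (L : Subgroup X) (x : X) :
    Nat.card L = Nat.card ↥(L ⊓ centralizer ({x} : Set X))
      * Set.ncard {y | ∃ l ∈ L, l * x * l⁻¹ = y} := by
  classical
  let f : L → X := fun l => (l : X) * x * (l : X)⁻¹
  have hker : ∀ a b : L, f a = f b ↔ (a⁻¹ * b) ∈ (centralizer ({x} : Set X)).subgroupOf L := by
    intro a b
    simp only [f, mem_subgroupOf, mem_centralizer_singleton_iff, Subgroup.coe_mul,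
      Subgroup.coe_inv]
    constructor <;> intro e
    · calc (a : X)⁻¹ * b * x = (a : X)⁻¹ * ((b : X) * x * (b : X)⁻¹) * b := by group
      _ = (a : X)⁻¹ * ((a : X) * x * (a : X)⁻¹) * b := by rw [e]
      _ = x * ((a : X)⁻¹ * b) := by group
    · calc (a : X) * x * (a : X)⁻¹ = a * (x * ((a : X)⁻¹ * b)) * (b : X)⁻¹ := by group
      _ = a * ((a : X)⁻¹ * b * x) * (b : X)⁻¹ := by rw [e]
      _ = b * x * (b : X)⁻¹ := by group
  let e : L ⧸ (centralizer ({x} : Set X)).subgroupOf L →
      ({y | ∃ l ∈ L, l * x * l⁻¹ = y} : Set X) :=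
    Quotient.lift (fun l => ⟨f l, l, l.2, rfl⟩) fun a b hab =>
      Subtype.ext ((hker a b).mpr (QuotientGroup.leftRel_apply.mp hab))
  have he : Function.Bijective e := by
    constructor
    · intro a b h
      induction a using QuotientGroup.induction_on
      induction b using QuotientGroup.induction_on
      exact QuotientGroup.eq.mpr ((hker _ _).mp (congrArg Subtype.val h))
    · rintro ⟨y, l, hl, rfl⟩
      exact ⟨QuotientGroup.mk ⟨l, hl⟩, rfl⟩
  have hcard : Nat.card ↥((centralizer ({x} : Set X)).subgroupOf L)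
      = Nat.card ↥(L ⊓ centralizer ({x} : Set X)) := by
    rw [inf_comm, ← inf_subgroupOf_right]
    exact Nat.card_congr (Subgroup.subgroupOfEquivOfLe inf_le_right).toEquiv
  rw [← Subgroup.card_mul_index ((centralizer ({x} : Set X)).subgroupOf L), hcard, Subgroup.index,
    Nat.card_congr (Equiv.ofBijective e he), Nat.card_coe_set_eq]

theorem orderOf_mul_conj (g x : X) : orderOf (g * x * g⁻¹) = orderOf x := by
  simpa using MulEquiv.orderOf_eq (MulAut.conj g) x

end CfsgLib.J4Seven39
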