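import Cfsg.Agent.Mathieu.OutLarge
import Cfsg.Agent.Mathieu.Classes

/-!
# Elements of order seven in the Mathieu group on 22 points and in its automorphism group
-/

set_option autoImplicit false

open scoped Pointwise

namespace CfsgLib.J4Seven39

open Cfsg CfsgLib.Golay CfsgLib.Mathieu

local notation "MM" => fixPt (fixPt M24 (none : GolayPt)) (some 0 : GolayPt)

theorem MM_none {g : Equiv.Perm GolayPt} (h : g ∈ MM) : g none = none := h.1.2

theorem MM_zero {g : Equiv.Perm GolayPt} (h : g ∈ MM) : g (some 0) = some 0 := h.2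

theorem MM_mem {g : Equiv.Perm GolayPt} (h : g ∈ MM) : g ∈ M24 := h.1.1

theorem card_MM : Nat.card ↥MM = 443520 := card_fixPair (by simp)

/-- An element of order seven of the point stabiliser fixes exactly three points. -/
theorem fixedPts_seven {y : Equiv.Perm GolayPt} (hy : y ∈ MM) (h7 : orderOf y = 7) :
    (fixedPts y).card = 3 := by
  obtain ⟨n, hn⟩ := card_fixedPts_prime (by norm_num) h7
  have hlt : (fixedPts y).card < 9 := by
    by_contra h
    rw [eq_one_of_nine_fixed (MM_mem hy) (by omega), orderOf_one] at h7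
    norm_num at h7
  omega

theorem exists_third {y : Equiv.Perm GolayPt} (hy : y ∈ MM) (h7 : orderOf y = 7) :
    ∃ c, c ≠ none ∧ c ≠ some 0 ∧ y c = c ∧
      ∀ p, y p = p → p = none ∨ p = some 0 ∨ p = c := by
  have h3 := fixedPts_seven hy h7
  have hsub : ({none, some 0} : Finset GolayPt) ⊆ fixedPts y := by
    intro p hp
    rcases Finset.mem_insert.1 hp with rfl | hp
    · exact mem_fixedPts.2 (MM_none hy)
    · rw [Finset.mem_singleton.1 hp]; exact mem_fixedPts.2 (MM_zero hy)
  have hd : (fixedPts y \ {none, some 0}).card = 1 := by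
    rw [Finset.card_sdiff_of_subset hsub, h3, Finset.card_pair (by simp)]
  obtain ⟨c, hc⟩ := Finset.card_eq_one.1 hd
  have hcm : c ∈ fixedPts y \ {none, some 0} := hc ▸ Finset.mem_singleton_self c
  simp only [Finset.mem_sdiff, Finset.mem_insert, Finset.mem_singleton, not_or] at hcm
  refine ⟨c, hcm.2.1, hcm.2.2, mem_fixedPts.1 hcm.1, fun p hp => ?_⟩
  by_contra hne
  push Not at hne
  have hpm : p ∈ fixedPts y \ {none, some 0} := by
    simp only [Finset.mem_sdiff, Finset.mem_insert, Finset.mem_singleton, not_or]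
    exact ⟨mem_fixedPts.2 hp, hne.1, hne.2.1⟩
  rw [hc, Finset.mem_singleton] at hpm
  exact hne.2.2 hpm

theorem apply_fixed_of_commute {g y : Equiv.Perm GolayPt} (h : Commute g y) {p : GolayPt}
    (hp : y p = p) : y (g p) = g p := by
  have := congrArg (fun σ : Equiv.Perm GolayPt => σ p) h.eq
  simp only [Equiv.Perm.mul_apply, hp] at this
  exact this.symm

/-- The number of fixed points outside the three fixed points of `y` is divisible by seven. -/
theorem seven_dvd_fixed_diff {g y : Equiv.Perm GolayPt} (h : Commute g y) (h7 : orderOf y = 7) :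
    7 ∣ (fixedPts g \ fixedPts y).card := by
  classical
  let F : Finset GolayPt := fixedPts g \ fixedPts y
  have hinv : ∀ k ∈ Subgroup.zpowers y, ∀ p ∈ F, k p ∈ F := by
    intro k hk p hp
    obtain ⟨i, rfl⟩ := Subgroup.mem_zpowers_iff.mp hk
    simp only [F, Finset.mem_sdiff, mem_fixedPts] at hp ⊢
    have hg : g ((y ^ i) p) = (y ^ i) p := by
      have := congrArg (fun σ : Equiv.Perm GolayPt => σ p) (h.zpow_right i).eq
      simp only [Equiv.Perm.mul_apply, hp.1] at this
      exact this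
    refine ⟨hg, fun e => hp.2 ?_⟩
    have := congrArg (fun σ : Equiv.Perm GolayPt => σ p) ((Commute.refl y).zpow_right i).eq
    simp only [Equiv.Perm.mul_apply] at this
    rw [e] at this
    exact ((y ^ i).injective this).symm
  -- count by orbits: `y` acts without fixed points on `F`
  let f : Equiv.Perm {p // p ∈ F} := y.subtypePerm fun p => by
    constructor
    · intro hp
      have := hinv y⁻¹ (inv_mem (Subgroup.mem_zpowers y)) _ hp
      simpa using this
    · exact hinv y (Subgroup.mem_zpowers y) p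
  have hf7 : f ^ 7 = 1 := by
    ext ⟨p, hp⟩
    have : y ^ 7 = 1 := h7 ▸ pow_orderOf_eq_one y
    simp [f, Equiv.Perm.subtypePerm_pow, this]
  have hsupp : f.support = Finset.univ := by
    ext ⟨p, hp⟩
    simp only [Finset.mem_univ, iff_true, Equiv.Perm.mem_support]
    intro e
    have hp' := hp
    simp only [F, Finset.mem_sdiff, mem_fixedPts] at hp'
    exact hp'.2 (congrArg Subtype.val e)
  have hsum := Equiv.Perm.sum_cycleType f
  rw [hsupp, Finset.card_univ, Fintype.card_coe] at hsum
  rw [← hsum]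
  refine Multiset.dvd_sum fun x hx => ?_
  have h1 : x ∣ 7 := (Equiv.Perm.dvd_of_mem_cycleType hx).trans (orderOf_dvd_of_pow_eq_one hf7)
  have h2 := Equiv.Perm.two_le_of_mem_cycleType hx
  rcases (Nat.dvd_prime (by norm_num : Nat.Prime 7)).1 h1 with e | e <;> omega

theorem seven_unique {y g : ↥MM} (hy : orderOf y = 7) (hg : orderOf g = 7) (h : Commute g y) :
    g ∈ Subgroup.zpowers y := by
  have : Fact (Nat.Prime 7) := ⟨by norm_num⟩
  by_contra hne
  let L := Subgroup.zpowers y ⊔ Subgroup.zpowers g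
  have hL : IsPGroup 7 ↥L := by
    refine (IsPGroup.of_card (n := 1) (by rw [Nat.card_zpowers, hy, pow_one])).to_sup_of_normal_right'
      (IsPGroup.of_card (n := 1) (by rw [Nat.card_zpowers, hg, pow_one])) ?_
    refine fun x hx => Subgroup.mem_normalizer_iff.2 fun w => ?_
    obtain ⟨i, rfl⟩ := Subgroup.mem_zpowers_iff.mp hx
    constructor <;> intro hw
    · obtain ⟨j, rfl⟩ := Subgroup.mem_zpowers_iff.mp hw
      rw [((h.symm.zpow_left i).zpow_right j).eq, mul_inv_cancel_right]
      exact Subgroup.mem_zpowers_iff.mpr ⟨j, rfl⟩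
    · obtain ⟨j, hj⟩ := Subgroup.mem_zpowers_iff.mp hw
      have e : w = (y ^ i)⁻¹ * g ^ j * y ^ i := by rw [hj]; group
      rw [e, mul_assoc, ← ((h.symm.zpow_left i).zpow_right j).eq, inv_mul_cancel_left]
      exact Subgroup.mem_zpowers_iff.mpr ⟨j, rfl⟩
  obtain ⟨n, hn⟩ := IsPGroup.iff_card.mp hL
  have hdvd : Nat.card L ∣ 443520 := card_MM ▸ Subgroup.card_subgroup_dvd_card L
  have hlt : Nat.card (Subgroup.zpowers y) < Nat.card L := by
    refine lt_of_le_of_ne (Nat.le_of_dvd Nat.card_pos (Subgroup.card_dvd_of_le le_sup_left))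
      fun e => hne ?_
    have := Subgroup.eq_of_le_of_card_ge (show Subgroup.zpowers y ≤ L from le_sup_left) e.ge
    rw [this]
    exact Subgroup.mem_sup_right (Subgroup.mem_zpowers g)
  rw [Nat.card_zpowers, hy, hn] at hlt
  rw [hn] at hdvd
  have hn2 : 2 ≤ n := by
    rcases n with _ | _ | n
    · norm_num at hlt
    · norm_num at hlt
    · omega
  have := (pow_dvd_pow 7 hn2).trans hdvd
  norm_num at this

/-- In `M22` an element of order seven generates its centraliser. -/
theorem card_centralizer_seven {y : ↥MM} (h7 : orderOf y = 7) :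
    Nat.card (Subgroup.centralizer ({y} : Set ↥MM)) = 7 := by
  set C := Subgroup.centralizer ({y} : Set ↥MM) with hC
  have hyC : Subgroup.zpowers y ≤ C :=
    Subgroup.zpowers_le.2 (Subgroup.mem_centralizer_singleton_iff.2 rfl)
  suffices C ≤ Subgroup.zpowers y by
    rw [le_antisymm this hyC, Nat.card_zpowers, h7]
  intro g hg
  have hgy : Commute g y := Subgroup.mem_centralizer_singleton_iff.1 hg
  -- every prime divisor of the centraliser is seven
  have hpr : ∀ r, r.Prime → r ∣ Nat.card C → r = 7 := by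
    intro r hr hrd
    by_contra hr7
    haveI : Fact r.Prime := ⟨hr⟩
    obtain ⟨a, ha⟩ := exists_prime_orderOf_dvd_card' (G := C) r hrd
    have hac : Commute ((a : ↥MM) : Equiv.Perm GolayPt) (y : Equiv.Perm GolayPt) :=
      congrArg Subtype.val (Subgroup.mem_centralizer_singleton_iff.1 a.2)
    have hao : orderOf ((a : ↥MM) : Equiv.Perm GolayPt) = r := by
      rw [Subgroup.orderOf_coe, Subgroup.orderOf_coe, ha]
    have hyo : orderOf (y : Equiv.Perm GolayPt) = 7 := (Subgroup.orderOf_coe y).trans h7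
    have haM := (a : ↥MM).2
    obtain ⟨c, hc0, hc1, hyc, hall⟩ := exists_third y.2 hyo
    have hac_c : (a : Equiv.Perm GolayPt) c = c := by
      rcases hall _ (apply_fixed_of_commute hac hyc) with e | e | e
      · exact absurd ((a : Equiv.Perm GolayPt).injective (e.trans (MM_none haM).symm)) hc0
      · exact absurd ((a : Equiv.Perm GolayPt).injective (e.trans (MM_zero haM).symm)) hc1
      · exact e
    have hsub : fixedPts (y : Equiv.Perm GolayPt) ⊆ fixedPts (a : Equiv.Perm GolayPt) := by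
      intro p hp
      rcases hall p (mem_fixedPts.1 hp) with rfl | rfl | rfl
      · exact mem_fixedPts.2 (MM_none haM)
      · exact mem_fixedPts.2 (MM_zero haM)
      · exact mem_fixedPts.2 hac_c
    have hmod := seven_dvd_fixed_diff hac hyo
    rw [Finset.card_sdiff_of_subset hsub, fixedPts_seven y.2 hyo] at hmod
    have hge := Finset.card_le_card hsub
    rw [fixedPts_seven y.2 hyo] at hge
    have hlt : (fixedPts (a : Equiv.Perm GolayPt)).card < 9 := by
      by_contra h
      rw [eq_one_of_nine_fixed (MM_mem haM) (by omega), orderOf_one] at hao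
      exact hr.ne_one hao.symm
    have h3 : (fixedPts (a : Equiv.Perm GolayPt)).card = 3 := by omega
    obtain ⟨n, hn⟩ := card_fixedPts_prime hr hao
    rw [h3] at hn
    have h21 : r ∣ 21 := ⟨n + 1, by omega⟩
    rcases (Nat.Prime.dvd_mul hr).1 (show r ∣ 3 * 7 from h21) with h | h
    · have hr3 : r = 3 := (Nat.prime_dvd_prime_iff_eq hr (by norm_num)).1 h
      rcases exists_conj_three (MM_mem haM) (hao.trans hr3) with ⟨e, -⟩ | ⟨e, -⟩ <;> omega
    · exact hr7 ((Nat.prime_dvd_prime_iff_eq hr (by norm_num)).1 h)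
  have ho : orderOf g ∣ Nat.card C := Subgroup.orderOf_dvd_natCard _ hg
  have hsq : ¬ 7 ^ 2 ∣ orderOf g := fun h => by
    have := (h.trans (orderOf_dvd_natCard g)).trans card_MM.dvd
    norm_num at this
  by_cases h1 : orderOf g = 1
  · rw [orderOf_eq_one_iff.1 h1]; exact one_mem _
  · refine seven_unique h7 ?_ hgy
    obtain ⟨r, hr, hrg⟩ := Nat.exists_prime_and_dvd h1
    obtain ⟨m, hm⟩ := hrg
    have hr7 : r = 7 := hpr r hr ((dvd_mul_right r m).trans (hm ▸ ho))
    subst hr7
    by_cases hm1 : m = 1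
    · rw [hm, hm1, mul_one]
    · obtain ⟨q, hq, hqm⟩ := Nat.exists_prime_and_dvd hm1
      have hq7 : q = 7 := hpr q hq ((hqm.trans (dvd_mul_left m 7)).trans (hm ▸ ho))
      subst hq7
      exact absurd (by rw [hm, pow_two]; exact Nat.mul_dvd_mul_left 7 hqm) hsq

/-- No element of `M24` interchanging two fixed points and fixing the third inverts `y`. -/
theorem not_inverting {y w : Equiv.Perm GolayPt} (hy : y ∈ MM) (h7 : orderOf y = 7)
    (hw : w ∈ M24) (hw2 : w * w = 1) (h0 : w none = some 0) (hinv : w * y * w⁻¹ = y⁻¹) :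
    False := by
  classical
  obtain ⟨c, hc0, hc1, hyc, hall⟩ := exists_third hy h7
  have hw1 : w (some 0) = none := by
    rw [← h0, ← Equiv.Perm.mul_apply, hw2]; rfl
  have hfix : ∀ p, y p = p → y (w p) = w p := by
    intro p hp
    have h' : y * w = w * y⁻¹ := by
      have : y⁻¹ * w = w * y := (mul_inv_eq_iff_eq_mul.1 hinv).symm
      calc y * w = y * (w * y) * y⁻¹ := by group
      _ = w * y⁻¹ := by rw [← this]; group
    have := congrArg (fun σ : Equiv.Perm GolayPt => σ p) h'
    simp only [Equiv.Perm.mul_apply] at this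
    rw [this]
    congr 1
    rw [Equiv.Perm.inv_eq_iff_eq, hp]
  have hwc : w c = c := by
    rcases hall _ (hfix c hyc) with e | e | e
    · exact absurd (w.injective (e.trans hw1.symm)) hc1
    · exact absurd (w.injective (e.trans h0.symm)) hc0
    · exact e
  have hw_ne : w ≠ 1 := fun e => by rw [e] at h0; simp at h0
  have hwo : orderOf w = 2 := orderOf_eq_prime (by rw [pow_two, hw2]) hw_ne
  have hF8 : (fixedPts w).card = 8 := by
    rcases exists_conj_involution hw hwo with ⟨e, -⟩ | ⟨e, -⟩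
    · have : c ∈ fixedPts w := mem_fixedPts.2 hwc
      exact absurd e (Finset.card_pos.2 ⟨c, this⟩).ne'
    · exact e
  set F := (fixedPts w).erase c with hF
  have hF7 : F.card = 7 := by rw [hF, Finset.card_erase_of_mem (mem_fixedPts.2 hwc), hF8]
  have hmove : ∀ p ∈ F, y p ≠ p := by
    intro p hp e
    rw [hF, Finset.mem_erase, mem_fixedPts] at hp
    rcases hall p e with rfl | rfl | rfl
    · rw [hp.2] at h0; simp at h0
    · rw [hp.2] at hw1; simp at hw1
    · exact hp.1 rfl
  -- the translates of `F` by the powers of `y` are disjoint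
  let T : Finset GolayPt × ℕ := (F, 7)
  have hinj : Set.InjOn (fun q : GolayPt × ℕ => (y ^ q.2) q.1) ↑(F ×ˢ Finset.range 7) := by
    rintro ⟨p, i⟩ hp ⟨q, j⟩ hq e
    simp only [Finset.coe_product, Set.mem_prod, Finset.mem_coe, Finset.mem_range] at hp hq
    simp only at e
    have hd : (y ^ ((j : ℤ) - i)) q = p := by
      apply (y ^ i).injective
      rw [e, ← Equiv.Perm.mul_apply, ← zpow_natCast y i, ← zpow_add, add_sub_cancel, zpow_natCast]
    set k : ℤ := (j : ℤ) - i
    have hwp : w p = p := mem_fixedPts.1 (Finset.mem_of_mem_erase hp.1)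
    have hwq : w q = q := mem_fixedPts.1 (Finset.mem_of_mem_erase hq.1)
    have hk : w * y ^ k = y ^ (-k) * w := by
      have := congrArg (fun σ => σ ^ k) hinv
      simp only [conj_zpow, inv_zpow'] at this
      exact mul_inv_eq_iff_eq_mul.1 this
    have h2 : (y ^ (-k)) q = p := by
      have := congrArg (fun σ : Equiv.Perm GolayPt => σ q) hk
      simp only [Equiv.Perm.mul_apply, hd, hwp, hwq] at this
      exact this.symm
    have h3 : (y ^ (2 * k)) q = q := by
      rw [two_mul, zpow_add, Equiv.Perm.mul_apply]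
      calc (y ^ k) ((y ^ k) q) = (y ^ k) ((y ^ (-k)) q) := by rw [hd, h2]
      _ = q := by rw [← Equiv.Perm.mul_apply, ← zpow_add, add_neg_cancel, zpow_zero]; rfl
    have hk0 : k = 0 := by
      by_contra hk0
      refine hmove q hq.1 ?_
      have hg : Int.gcd (2 * k) 7 = 1 := by
        refine Int.isCoprime_iff_gcd_eq_one.mp ?_
        refine (Int.prime_iff_natAbs_prime.2 (by norm_num : Nat.Prime (7 : ℤ).natAbs)).coprime_iff_not_dvd.2
          (fun h => ?_) |>.symm
        omega
      have hb := Int.gcd_eq_gcd_ab (2 * k) 7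
      rw [hg] at hb
      have : y = (y ^ (2 * k)) ^ (Int.gcdA (2 * k) 7) := by
        rw [← zpow_mul]
        conv_lhs => rw [← zpow_one y, show (1 : ℤ) = _ from hb]
        rw [zpow_add, zpow_mul y 7, show (7 : ℤ) = ((orderOf y : ℕ) : ℤ) by simp [h7], zpow_natCast,
          pow_orderOf_eq_one, one_zpow, mul_one]
      rw [this]
      exact zpowers_apply_fixed h3 _ (Subgroup.mem_zpowers_iff.2 ⟨_, rfl⟩)
    have hij : i = j := by omega
    subst hij
    simp [(y ^ i).injective e]
  have hle := Finset.card_le_univ ((F ×ˢ Finset.range 7).image fun q => (y ^ q.2) q.1)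
  rw [Finset.card_image_of_injOn hinj, Finset.card_product, hF7, Finset.card_range,
    show Fintype.card GolayPt = 24 from rfl] at hle
  omega

theorem conj_mem_iff_of_swap {g : Equiv.Perm GolayPt} (hg : g ∈ M24) (h1 : g none = some 0)
    (h2 : g (some 0) = none) (x : Equiv.Perm GolayPt) : x ∈ MM ↔ g * x * g⁻¹ ∈ MM := by
  show ((x ∈ M24 ∧ x • (none : GolayPt) = none) ∧ x • (some 0 : GolayPt) = some 0) ↔
    ((g * x * g⁻¹ ∈ M24 ∧ (g * x * g⁻¹) • (none : GolayPt) = none) ∧
      (g * x * g⁻¹) • (some 0 : GolayPt) = some 0)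
  rw [conj_mem_M24_iff hg, conj_fix_iff g x (some 0) none h2, conj_fix_iff g x none (some 0) h1]
  tauto

/-- An element of `M24` interchanging the two points centralises a given element of order 7. -/
theorem exists_swap_centralizing {y : Equiv.Perm GolayPt} (hy : y ∈ MM) (h7 : orderOf y = 7) :
    ∃ w ∈ M24, w none = some 0 ∧ w (some 0) = none ∧ Commute w y := by
  haveI : Fact (Nat.Prime 7) := ⟨by norm_num⟩
  obtain ⟨g, hg, hg0, hg1⟩ := exists_map_two (show (none : GolayPt) ≠ some 0 by simp)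
    (show (some 0 : GolayPt) ≠ none by simp)
  set y' : ↥MM := ⟨g * y * g⁻¹, (conj_mem_iff_of_swap hg hg0 hg1 y).1 hy⟩ with hy'
  have hy'7 : orderOf y' = 7 := by
    rw [← Subgroup.orderOf_coe, hy']
    simpa using (MulEquiv.orderOf_eq (MulAut.conj g) y).trans h7
  set yy : ↥MM := ⟨y, hy⟩
  have hyy7 : orderOf yy = 7 := by rw [← Subgroup.orderOf_coe]; exact h7
  have hsyl : ∀ u : ↥MM, orderOf u = 7 → ∃ P : Sylow 7 ↥MM, (P : Subgroup ↥MM) = Subgroup.zpowers u := by
    intro u hu
    refine ⟨Sylow.ofCard (Subgroup.zpowers u) ?_, rfl⟩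
    rw [Nat.card_zpowers, hu, card_MM]
    have : Nat.factorization 443520 7 = 1 := by
      have e : (443520 : ℕ) = 7 * 63360 := by norm_num
      rw [e, Nat.factorization_mul (by norm_num) (by norm_num), Finsupp.coe_add, Pi.add_apply,
        Nat.Prime.factorization_self (by norm_num),
        Nat.factorization_eq_zero_of_not_dvd (by norm_num : ¬ 7 ∣ 63360)]
    rw [this, pow_one]
  obtain ⟨P, hP⟩ := hsyl y' hy'7
  obtain ⟨Q, hQ⟩ := hsyl yy hyy7
  obtain ⟨h, hh⟩ := MulAction.exists_smul_eq ↥MM P Q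
  have hmem : h * y' * h⁻¹ ∈ Subgroup.zpowers yy := by
    rw [← hQ, ← hh]
    simp only [Sylow.coe_subgroup_smul, Subgroup.mem_smul_pointwise_iff_exists]
    exact ⟨y', hP ▸ Subgroup.mem_zpowers y', rfl⟩
  obtain ⟨k, hk⟩ := Subgroup.mem_zpowers_iff.1 hmem
  set σ : Equiv.Perm GolayPt := (h : Equiv.Perm GolayPt) * g with hσ
  have hσy : σ * y * σ⁻¹ = y ^ k := by
    have := congrArg Subtype.val hk
    simp only [SubgroupClass.coe_zpow, Subgroup.coe_mul, Subgroup.coe_inv, hy', yy] at this
    rw [this, hσ]; group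
  have hσ0 : σ none = some 0 := by rw [hσ, Equiv.Perm.mul_apply, hg0, MM_zero h.2]
  have hσ1 : σ (some 0) = none := by rw [hσ, Equiv.Perm.mul_apply, hg1, MM_none h.2]
  have hσM : σ ∈ M24 := M24.mul_mem (MM_mem h.2) hg
  -- the cube of `σ` inverts or centralises `y`
  have hstep : ∀ j : ℤ, σ * y ^ j * σ⁻¹ = y ^ (k * j) := by
    intro j
    rw [← conj_zpow, hσy, ← zpow_mul]
  set w := σ * σ * σ with hw
  have hw3 : w * y * w⁻¹ = y ^ (k * (k * k)) := by
    calc w * y * w⁻¹ = σ * (σ * (σ * y * σ⁻¹) * σ⁻¹) * σ⁻¹ := by rw [hw]; group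
    _ = y ^ (k * (k * k)) := by rw [hσy, hstep, hstep]
  have hw0 : w none = some 0 := by simp [hw, hσ0, hσ1]
  have hw1 : w (some 0) = none := by simp [hw, hσ0, hσ1]
  have hwM : w ∈ M24 := M24.mul_mem (M24.mul_mem hσM hσM) hσM
  have hk7 : ¬ (7 : ℤ) ∣ k := by
    rintro ⟨j, rfl⟩
    rw [zpow_mul, show (7 : ℤ) = ((orderOf y : ℕ) : ℤ) by simp [h7], zpow_natCast,
      pow_orderOf_eq_one, one_zpow, conj_eq_one_iff] at hσy
    rw [hσy, orderOf_one] at h7
    norm_num at h7
  have hcube : (k * (k * k)) % 7 = 1 ∨ (k * (k * k)) % 7 = 6 := by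
    have : k % 7 = 1 ∨ k % 7 = 2 ∨ k % 7 = 3 ∨ k % 7 = 4 ∨ k % 7 = 5 ∨ k % 7 = 6 := by omega
    rcases this with e | e | e | e | e | e <;> simp [Int.mul_emod, e]
  have hz : w * y * w⁻¹ = y ^ ((k * (k * k)) % 7) := by
    rw [hw3, ← zpow_mod_orderOf, h7]; norm_num
  rcases hcube with e | e <;> rw [e] at hz
  · exact ⟨w, hwM, hw0, hw1, mul_inv_eq_iff_eq_mul.1 (by rw [hz, zpow_one])⟩
  · exfalso
    have hinv : w * y * w⁻¹ = y⁻¹ := by
      rw [hz, eq_inv_iff_mul_eq_one, ← zpow_add_one, show (6 : ℤ) + 1 = ((orderOf y : ℕ) : ℤ) by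
        simp [h7], zpow_natCast, pow_orderOf_eq_one]
    -- make it an involution
    set n := orderOf w with hn
    have hwwMM : w * w ∈ MM := ⟨⟨M24.mul_mem hwM hwM, by show w (w none) = none; rw [hw0, hw1]⟩,
      by show w (w (some 0)) = some 0; rw [hw1, hw0]⟩
    have hwwy : Commute (w * w) y := by
      refine mul_inv_eq_iff_eq_mul.1 ?_
      calc w * w * y * (w * w)⁻¹ = w * (w * y * w⁻¹) * w⁻¹ := by group
      _ = w * y⁻¹ * w⁻¹ := by rw [hinv]
      _ = (w * y * w⁻¹)⁻¹ := by group
      _ = y := by rw [hinv, inv_inv]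
    have hmem : (⟨w * w, hwwMM⟩ : ↥MM) ∈ Subgroup.centralizer ({yy} : Set ↥MM) :=
      Subgroup.mem_centralizer_singleton_iff.2 (Subtype.ext hwwy.eq)
    have hle : Subgroup.zpowers yy = Subgroup.centralizer ({yy} : Set ↥MM) := by
      refine Subgroup.eq_of_le_of_card_ge
        (Subgroup.zpowers_le.2 (Subgroup.mem_centralizer_singleton_iff.2 rfl)) ?_
      rw [card_centralizer_seven hyy7, Nat.card_zpowers, hyy7]
    rw [← hle] at hmem
    obtain ⟨i, hi⟩ := Subgroup.mem_zpowers_iff.1 hmem
    have hi' : y ^ i = w * w := by simpa [yy] using congrArg Subtype.val hi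
    have hfix : w * y ^ i * w⁻¹ = y ^ i := by rw [hi']; group
    rw [← conj_zpow, hinv, inv_zpow'] at hfix
    have h2i : y ^ (2 * i) = 1 := by
      rw [two_mul, zpow_add]
      nth_rewrite 1 [← hfix]
      rw [← zpow_add, neg_add_cancel, zpow_zero]
    have h7i : (7 : ℤ) ∣ i := by
      have := orderOf_dvd_iff_zpow_eq_one.2 h2i
      rw [h7] at this
      omega
    obtain ⟨j, rfl⟩ := h7i
    have hww : w * w = 1 := by
      rw [← hi', zpow_mul, show (7 : ℤ) = ((orderOf y : ℕ) : ℤ) by simp [h7], zpow_natCast,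
        pow_orderOf_eq_one, one_zpow]
    exact not_inverting hy h7 hwM hww hw0 hinv

theorem center_trivial {x : ↥MM} (h : ∀ a : ↥MM, Commute a x) : x = 1 := by
  haveI : IsSimpleGroup ↥MM := isSimpleGroup_M22
  have hx : x ∈ Subgroup.center ↥MM := Subgroup.mem_center_iff.2 fun a => (h a).eq
  rcases (inferInstance : (Subgroup.center ↥MM).Normal).eq_bot_or_eq_top with e | e
  · rw [e] at hx; exact Subgroup.mem_bot.1 hx
  · exfalso
    obtain ⟨⟨y, hy⟩, hy7⟩ : ∃ y : ↥MM, orderOf y = 7 := by
      haveI : Fact (Nat.Prime 7) := ⟨by norm_num⟩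
      exact exists_prime_orderOf_dvd_card' 7 (by rw [card_MM]; norm_num)
    have htop : Subgroup.centralizer ({(⟨y, hy⟩ : ↥MM)} : Set ↥MM) = ⊤ :=
      eq_top_iff.2 fun a _ => Subgroup.mem_centralizer_singleton_iff.2
        (Subgroup.mem_center_iff.1 (e ▸ Subgroup.mem_top (⟨y, hy⟩ : ↥MM)) a)
    have := card_centralizer_seven hy7
    rw [htop, Subgroup.card_top, card_MM] at this
    omega

theorem exists_three {a b c d : GolayPt} (hab : a ≠ b) (hcd : a ≠ c) (hbc : b ≠ c) (hda : a ≠ d)
    (hdb : b ≠ d) : ∃ k ∈ M24, k a = a ∧ k b = b ∧ k c = d := by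
  classical
  obtain ⟨r, -, hr⟩ := Finset.exists_mem_notMem_of_card_lt_card
    (show ({a, b, c} : Finset GolayPt).card < (Finset.univ : Finset GolayPt).card from
      lt_of_le_of_lt Finset.card_le_three (by decide))
  obtain ⟨s, -, hs⟩ := Finset.exists_mem_notMem_of_card_lt_card
    (show ({a, b, d} : Finset GolayPt).card < (Finset.univ : Finset GolayPt).card from
      lt_of_le_of_lt Finset.card_le_three (by decide))
  simp only [Finset.mem_insert, Finset.mem_singleton, not_or] at hr hs
  obtain ⟨k, hk, hkx⟩ := exists_map_four (x := ![a, b, c, r]) (y := ![a, b, d, s])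
    (by
      intro i j hij
      fin_cases i <;> fin_cases j <;>
        simp [hab, hcd, hbc, Ne.symm hab, Ne.symm hcd, Ne.symm hbc, hr.1, hr.2.1, hr.2.2,
          Ne.symm hr.1, Ne.symm hr.2.1, Ne.symm hr.2.2] at hij ⊢)
    (by
      intro i j hij
      fin_cases i <;> fin_cases j <;>
        simp [hab, hda, hdb, Ne.symm hab, Ne.symm hda, Ne.symm hdb, hs.1, hs.2.1, hs.2.2,
          Ne.symm hs.1, Ne.symm hs.2.1, Ne.symm hs.2.2] at hij ⊢)
  exact ⟨k, hk, hkx 0, hkx 1, hkx 2⟩

/-- An automorphism outside the inner ones fixing a given element of order 7. -/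
theorem exists_outer_fixing {y : ↥MM} (h7 : orderOf y = 7) :
    ∃ φ : MulAut ↥MM, φ ∉ Cfsg.Inn ↥MM ∧ φ y = y := by
  have hyo : orderOf (y : Equiv.Perm GolayPt) = 7 := (Subgroup.orderOf_coe y).trans h7
  obtain ⟨w, hwM, hw0, hw1, hwy⟩ := exists_swap_centralizing y.2 hyo
  refine ⟨conjAutOf w (conj_mem_iff_of_swap hwM hw0 hw1), ?_, Subtype.ext ?_⟩
  swap
  · rw [conjAutOf_apply]; exact mul_inv_eq_iff_eq_mul.2 hwy.eq
  rintro ⟨h, hh⟩
  set u : Equiv.Perm GolayPt := (h : Equiv.Perm GolayPt)⁻¹ * w with hu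
  have hcomm : ∀ x : ↥MM, Commute u x := by
    intro x
    have e : (h : Equiv.Perm GolayPt) * x * (h : Equiv.Perm GolayPt)⁻¹ = w * x * w⁻¹ :=
      congrArg (fun f : MulAut ↥MM => (f x : Equiv.Perm GolayPt)) hh
    show u * x = x * u
    calc u * x = (h : Equiv.Perm GolayPt)⁻¹ * (w * x * w⁻¹) * w := by rw [hu]; group
    _ = (h : Equiv.Perm GolayPt)⁻¹ * (h * x * (h : Equiv.Perm GolayPt)⁻¹) * w := by rw [e]
    _ = x * u := by rw [hu]; group
  have huM : u ∈ M24 := M24.mul_mem (M24.inv_mem (MM_mem h.2)) hwM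
  have hu0 : u none = some 0 := by
    rw [hu, Equiv.Perm.mul_apply, hw0, Equiv.Perm.inv_eq_iff_eq]; exact (MM_zero h.2).symm
  have hu1 : u (some 0) = none := by
    rw [hu, Equiv.Perm.mul_apply, hw1, Equiv.Perm.inv_eq_iff_eq]; exact (MM_none h.2).symm
  obtain ⟨c, hc0, hc1, hyc, hall⟩ := exists_third y.2 hyo
  have huc : u c = c := by
    rcases hall _ (apply_fixed_of_commute (hcomm y) hyc) with e | e | e
    · exact absurd (u.injective (e.trans hu1.symm)) hc1
    · exact absurd (u.injective (e.trans hu0.symm)) hc0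
    · exact e
  have hfixp : ∀ p, p ≠ none → p ≠ some 0 → u p = p := by
    intro p hp0 hp1
    obtain ⟨k, hk, hk0, hk1, hkc⟩ := exists_three (show (none : GolayPt) ≠ some 0 by simp)
      hc0.symm hc1.symm hp0.symm hp1.symm
    have := congrArg (fun σ : Equiv.Perm GolayPt => σ c) (hcomm ⟨k, ⟨hk, hk0⟩, hk1⟩).eq
    simp only [Equiv.Perm.mul_apply, huc] at this
    rwa [show k c = p from hkc] at this
  have hone : u = 1 := eq_one_of_nine_fixed huM (by
    have hsub : (({none, some 0} : Finset GolayPt)ᶜ) ⊆ fixedPts u := fun p hp => by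
      simp only [Finset.mem_compl, Finset.mem_insert, Finset.mem_singleton, not_or] at hp
      exact mem_fixedPts.2 (hfixp p hp.1 hp.2)
    refine le_trans ?_ (Finset.card_le_card hsub)
    rw [Finset.card_compl, Finset.card_pair (by simp)]
    decide)
  rw [hone] at hu0
  simp at hu0

theorem index_inn : (Cfsg.Inn ↥MM).index = 2 := card_out_M22

theorem conj_injective : Function.Injective (MulAut.conj : ↥MM →* MulAut ↥MM) := by
  intro a b h
  have : ∀ x : ↥MM, Commute x (b⁻¹ * a) := by
    intro x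
    have e := congrArg (fun f : MulAut ↥MM => f x) h
    simp only [MulAut.conj_apply] at e
    show x * (b⁻¹ * a) = b⁻¹ * a * x
    calc x * (b⁻¹ * a) = b⁻¹ * (b * x * b⁻¹) * a := by group
    _ = b⁻¹ * (a * x * a⁻¹) * a := by rw [e]
    _ = b⁻¹ * a * x := by group
  exact (inv_mul_eq_one.1 (center_trivial this)).symm

theorem conj_comm_iff (φ : MulAut ↥MM) (y : ↥MM) :
    φ * MulAut.conj y * φ⁻¹ = MulAut.conj (φ y) := by
  ext x
  simp [MulAut.conj_apply]

/-- Elements of order seven of the automorphism group of `M22`. -/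
theorem aut_seven {ψ : MulAut ↥MM} (h : orderOf ψ = 7) :
    Nat.card (Subgroup.centralizer ({ψ} : Set (MulAut ↥MM))) = 14 ∧
      Nat.card (Subgroup.normalizer (Subgroup.zpowers ψ : Set (MulAut ↥MM))) = 42 := by
  haveI : Fact (Nat.Prime 7) := ⟨by norm_num⟩
  have hsq : ψ * ψ ∈ Cfsg.Inn ↥MM := Subgroup.mul_self_mem_of_index_two index_inn ψ
  have hψ : ψ ∈ Cfsg.Inn ↥MM := by
    have e : ψ = (ψ * ψ) ^ 4 := by
      rw [← pow_two, ← pow_mul, show 2 * 4 = orderOf ψ + 1 by rw [h], pow_succ, pow_orderOf_eq_one,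
        one_mul]
    rw [e]
    exact Subgroup.pow_mem _ hsq _
  obtain ⟨y, rfl⟩ := hψ
  have hy7 : orderOf y = 7 := by rw [← orderOf_injective _ conj_injective y, h]
  obtain ⟨φ, hφI, hφy⟩ := exists_outer_fixing hy7
  have hcard : ∀ L : Subgroup (MulAut ↥MM), φ ∈ L →
      Nat.card L = 2 * Nat.card (L.comap (MulAut.conj : ↥MM →* MulAut ↥MM)) := by
    intro L hL
    have hi2 : ((Cfsg.Inn ↥MM).subgroupOf L).index = 2 := by
      refine Subgroup.index_eq_two_iff.2 ⟨⟨φ, hL⟩, fun b => ?_⟩
      simp only [Subgroup.mem_subgroupOf, Subgroup.coe_mul]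
      by_cases hb : (b : MulAut ↥MM) ∈ Cfsg.Inn ↥MM
      · refine Or.inr ⟨hb, fun h' => hφI ?_⟩
        exact ((Cfsg.Inn ↥MM).mul_mem_cancel_left hb).1 h'
      · exact Or.inl ⟨(Subgroup.mul_mem_iff_of_index_two index_inn).2 (iff_of_false hb hφI), hb⟩
    rw [← Subgroup.card_mul_index ((Cfsg.Inn ↥MM).subgroupOf L), hi2, mul_comm]
    congr 1
    have e1 : Nat.card ((Cfsg.Inn ↥MM).subgroupOf L) = Nat.card ↥(L ⊓ Cfsg.Inn ↥MM) := by
      rw [inf_comm, ← Subgroup.inf_subgroupOf_right]
      exact Nat.card_congr (Subgroup.subgroupOfEquivOfLe inf_le_right).toEquiv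
    have e2 : L ⊓ Cfsg.Inn ↥MM = (L.comap (MulAut.conj : ↥MM →* MulAut ↥MM)).map MulAut.conj := by
      rw [Subgroup.map_comap_eq, inf_comm]
    rw [e1, e2]
    exact Nat.card_congr (Subgroup.equivMapOfInjective _ _ conj_injective).toEquiv.symm
  have hφC : φ ∈ Subgroup.centralizer ({MulAut.conj y} : Set (MulAut ↥MM)) := by
    refine Subgroup.mem_centralizer_singleton_iff.2 (mul_inv_eq_iff_eq_mul.1 ?_)
    rw [conj_comm_iff, hφy]
  have hC : (Subgroup.centralizer ({MulAut.conj y} : Set (MulAut ↥MM))).comap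
      (MulAut.conj : ↥MM →* MulAut ↥MM) = Subgroup.centralizer ({y} : Set ↥MM) := by
    ext x
    simp only [Subgroup.mem_comap, Subgroup.mem_centralizer_singleton_iff, ← map_mul]
    exact conj_injective.eq_iff
  have hN : (Subgroup.normalizer (Subgroup.zpowers (MulAut.conj y) : Set (MulAut ↥MM))).comap
      (MulAut.conj : ↥MM →* MulAut ↥MM) = Subgroup.normalizer (Subgroup.zpowers y : Set ↥MM) := by
    ext x
    have hz : ∀ w : ↥MM, MulAut.conj w ∈ Subgroup.zpowers (MulAut.conj y) ↔
        w ∈ Subgroup.zpowers y := by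
      intro w
      rw [← MonoidHom.map_zpowers]
      exact Subgroup.mem_map_iff_mem conj_injective
    simp only [Subgroup.mem_comap, Subgroup.mem_normalizer_iff]
    constructor
    · intro hx w
      have := hx (MulAut.conj w)
      rwa [← map_inv, ← map_mul, ← map_mul, hz, hz] at this
    · intro hx ψ
      constructor
      · intro hψ
        obtain ⟨i, rfl⟩ := Subgroup.mem_zpowers_iff.1 hψ
        rw [← map_zpow, ← map_inv, ← map_mul, ← map_mul, hz]
        exact (hx _).1 (Subgroup.mem_zpowers_iff.2 ⟨i, rfl⟩)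
      · intro hψ
        obtain ⟨i, hi⟩ := Subgroup.mem_zpowers_iff.1 hψ
        have e : ψ = MulAut.conj (x⁻¹ * y ^ i * x) := by
          rw [map_mul, map_mul, map_inv, map_zpow, hi]; group
        rw [e, hz]
        refine (hx _).2 ?_
        rw [show x * (x⁻¹ * y ^ i * x) * x⁻¹ = y ^ i by group]
        exact Subgroup.mem_zpowers_iff.2 ⟨i, rfl⟩
  have hC14 : Nat.card (Subgroup.centralizer ({MulAut.conj y} : Set (MulAut ↥MM))) = 14 := by
    rw [hcard _ hφC, hC, card_centralizer_seven hy7]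
  refine ⟨hC14, ?_⟩
  have hφN : φ ∈ Subgroup.normalizer (Subgroup.zpowers (MulAut.conj y) : Set (MulAut ↥MM)) := by
    have hle : Subgroup.centralizer ({MulAut.conj y} : Set (MulAut ↥MM)) ≤
        Subgroup.normalizer (Subgroup.zpowers (MulAut.conj y) : Set (MulAut ↥MM)) := by
      intro w hw
      rw [Subgroup.mem_normalizer_iff]
      intro x
      have hwc : Commute w (MulAut.conj y) := Subgroup.mem_centralizer_singleton_iff.1 hw
      constructor
      · intro hx
        obtain ⟨i, rfl⟩ := Subgroup.mem_zpowers_iff.1 hx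
        rw [(hwc.zpow_right i).eq, mul_inv_cancel_right]
        exact Subgroup.mem_zpowers_iff.2 ⟨i, rfl⟩
      · intro hx
        obtain ⟨i, hi⟩ := Subgroup.mem_zpowers_iff.1 hx
        have e : x = w⁻¹ * (MulAut.conj y) ^ i * w := by rw [hi]; group
        rw [e, mul_assoc, ← (hwc.zpow_right i).eq, inv_mul_cancel_left]
        exact Subgroup.mem_zpowers_iff.2 ⟨i, rfl⟩
    exact hle hφC
  rw [hcard _ hφN, hN]
  -- Sylow counting gives the normalizer of order 21
  have hC7 := card_centralizer_seven hy7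
  set N := Subgroup.normalizer (Subgroup.zpowers y : Set ↥MM) with hNdef
  have hS : Nat.factorization 443520 7 = 1 := by
    have e : (443520 : ℕ) = 7 * 63360 := by norm_num
    rw [e, Nat.factorization_mul (by norm_num) (by norm_num), Finsupp.coe_add, Pi.add_apply,
      Nat.Prime.factorization_self (by norm_num),
      Nat.factorization_eq_zero_of_not_dvd (by norm_num : ¬ 7 ∣ 63360)]
  let P : Sylow 7 ↥MM := Sylow.ofCard (Subgroup.zpowers y) (by
    rw [Nat.card_zpowers, hy7, card_MM, hS, pow_one])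
  have hidx : N.index % 7 = 1 := by
    have := card_sylow_modEq_one (p := 7) (G := ↥MM)
    rw [Sylow.card_eq_index_normalizer P] at this
    exact this
  have hdvd : Nat.card N ∣ 42 := by
    have hcC : Nat.card (Subgroup.centralizer (Subgroup.zpowers y : Set ↥MM)) = 7 := by
      rw [Subgroup.zpowers_eq_closure, Subgroup.centralizer_closure, hC7]
    have h := Subgroup.card_mul_index ((Subgroup.normalizerMonoidHom (Subgroup.zpowers y)).ker)
    rw [Subgroup.index_ker] at h
    have hk : Nat.card (Subgroup.normalizerMonoidHom (Subgroup.zpowers y)).ker ∣ 7 := by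
      rw [← hcC]
      rw [Subgroup.normalizerMonoidHom_ker]
      exact Subgroup.card_comap_dvd_of_injective _ _ (Subgroup.subtype_injective _)
    have hr : Nat.card (Subgroup.normalizerMonoidHom (Subgroup.zpowers y)).range ∣ 6 := by
      have hA : Nat.card (MulAut ↥(Subgroup.zpowers y)) = 6 := by
        rw [IsCyclic.card_mulAut, Nat.card_zpowers, hy7, Nat.totient_prime (by norm_num)]
      exact hA ▸ Subgroup.card_subgroup_dvd_card _
    rw [← h]
    exact Nat.mul_dvd_mul hk hr
  have h7N : 7 ∣ Nat.card N := by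
    have := Subgroup.card_dvd_of_le (Subgroup.le_normalizer (H := Subgroup.zpowers y))
    rwa [Nat.card_zpowers, hy7] at this
  have hmul := Subgroup.card_mul_index N
  rw [card_MM] at hmul
  obtain ⟨d, hd⟩ := h7N
  rw [hd] at hdvd hmul ⊢
  have hd6 : d ∣ 6 := Nat.dvd_of_mul_dvd_mul_left (by norm_num : 0 < 7) hdvd
  have hd' := Nat.le_of_dvd (by norm_num) hd6
  interval_cases d
  all_goals omega

/-- Elements of order seven of `M22` generate their centralisers. -/
theorem m22_card_centralizer_seven {y : ↥Cfsg.Spor.M22} (h7 : orderOf y = 7) :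
    Nat.card (Subgroup.centralizer ({y} : Set ↥Cfsg.Spor.M22)) = 7 :=
  card_centralizer_seven h7

/-- Elements of order seven of the automorphism group of `M22`. -/
theorem m22_aut_seven {ψ : MulAut ↥Cfsg.Spor.M22} (h : orderOf ψ = 7) :
    Nat.card (Subgroup.centralizer ({ψ} : Set (MulAut ↥Cfsg.Spor.M22))) = 14 ∧
      Nat.card (Subgroup.normalizer (Subgroup.zpowers ψ : Set (MulAut ↥Cfsg.Spor.M22))) = 42 :=
  aut_seven h

end CfsgLib.J4Seven39
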