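import Cfsg.Agent.J4Seven39.Gen
import Cfsg.Agent.J4Seven39.M22Seven
import Cfsg.Prelude.Def_Transfer

/-!
# The configuration: an element of order seven in the centraliser of the involution
-/

set_option autoImplicit false

namespace CfsgLib.J4Seven39

open Subgroup

/-- An elementary abelian normal subgroup of order `2^11` of `C(w)` with a complement `Aut M22`. -/
def TData {G : Type*} [Group G] (w : G) (V K : Subgroup G) : Prop :=
  V ≤ centralizer ({w} : Set G) ∧ K ≤ centralizer ({w} : Set G) ∧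
    centralizer ({w} : Set G) ≤ normalizer (V : Set G) ∧ Cfsg.IsElementaryAbelian 2 V ∧
    Nat.card ↥V = 2 ^ 11 ∧ K ⊓ V = ⊥ ∧ K ⊔ V = centralizer ({w} : Set G) ∧
    Nonempty (↥K ≃* MulAut ↥Cfsg.Spor.M22)

/-- The configuration. -/
structure Conf (G : Type*) [Group G] where
  z : G
  s : G
  p₀ : G
  E : Subgroup G
  N : Subgroup G
  hz : orderOf z = 2
  hs : orderOf s = 7
  hsz : Commute s z
  hp₀ : orderOf p₀ = 3
  hEN : E ≤ N
  hNH : N ≤ centralizer ({z} : Set G)
  hEn : centralizer ({z} : Set G) ≤ normalizer (E : Set G)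
  hNn : centralizer ({z} : Set G) ≤ normalizer (N : Set G)
  hEcard : Nat.card ↥E = 2 ^ 13
  hNcard : Nat.card ↥N = 3 * 2 ^ 13
  hquot : ∃ f : ↥(centralizer ({z} : Set G)) →* MulAut ↥Cfsg.Spor.M22,
    Function.Surjective f ∧ f.ker = N.subgroupOf (centralizer ({z} : Set G))
  hCE : ∀ x : G, Commute x z → (∀ y ∈ E, Commute x y) → x ∈ E
  hcenter : ∀ a ∈ E, (∀ b ∈ E, Commute a b) → a = 1 ∨ a = z
  hcomm : ∀ a ∈ E, ∀ b ∈ E, a * b * a⁻¹ * b⁻¹ = 1 ∨ a * b * a⁻¹ * b⁻¹ = z
  hpN : p₀ ∈ N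
  hEp : ∀ x, (x ∈ E ∧ Commute x p₀) ↔ (x = 1 ∨ x = z)
  hpC : centralizer ({p₀} : Set G) ≤ centralizer ({z} : Set G)
  three : ∀ q : G, orderOf q = 3 → IsConj p₀ q
  tex : ∃ t : G, orderOf t = 2 ∧ ¬ IsConj z t
  tcent : ∀ w : G, orderOf w = 2 → ¬ IsConj z w → ∃ V K : Subgroup G, TData w V K
  elem_unique : ∀ T : Sylow 2 G, ∀ V V' : Subgroup G, V ≤ (T : Subgroup G) →
    Cfsg.IsElementaryAbelian 2 V → Nat.card ↥V = 2 ^ 11 → V' ≤ (T : Subgroup G) →
    Cfsg.IsElementaryAbelian 2 V' → Nat.card ↥V' = 2 ^ 11 → V = V'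

open scoped Pointwise in
theorem exists_mul_of_mem_sup {G : Type*} [Group G] {K V : Subgroup G}
    (h : K ≤ normalizer (V : Set G)) {x : G} (hx : x ∈ K ⊔ V) : ∃ k ∈ K, ∃ v ∈ V, k * v = x := by
  rw [← SetLike.mem_coe, Subgroup.coe_mul_of_left_le_normalizer_right K V h] at hx
  exact Set.mem_mul.1 hx

theorem card_mulAut_M22 : Nat.card (MulAut ↥Cfsg.Spor.M22) = 887040 := by
  have hI : (MulAut.conj : ↥Cfsg.Spor.M22 →* MulAut ↥Cfsg.Spor.M22).range.index = 2 := index_inn
  have hinj : Function.Injective (MulAut.conj : ↥Cfsg.Spor.M22 →* MulAut ↥Cfsg.Spor.M22) :=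
    conj_injective
  have h := Subgroup.card_mul_index (MulAut.conj : ↥Cfsg.Spor.M22 →* MulAut ↥Cfsg.Spor.M22).range
  have h3 : Nat.card ↥Cfsg.Spor.M22 = 443520 := card_MM
  rw [hI, ← Nat.card_congr (MonoidHom.ofInjective hinj).toEquiv, h3] at h
  rw [← h]

theorem mulAut_center {ψ : MulAut ↥Cfsg.Spor.M22} (h : ∀ φ, Commute ψ φ) : ψ = 1 := by
  ext1 x
  have e := conj_comm_iff ψ x
  have e2 : ψ * MulAut.conj x * ψ⁻¹ = MulAut.conj x := mul_inv_eq_iff_eq_mul.2 (h _).eq
  exact conj_injective (e.symm.trans e2)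

namespace Conf

variable {G : Type*} [Group G] [Finite G] (c : Conf G)

/-- The centraliser of `z`. -/
def H : Subgroup G := centralizer ({c.z} : Set G)

theorem mem_H {x : G} : x ∈ c.H ↔ Commute x c.z := mem_centralizer_singleton_iff

theorem z_ne_one : c.z ≠ 1 := fun e => by
  have := c.hz; rw [e, orderOf_one] at this; omega

theorem zz : c.z * c.z = 1 := by rw [← pow_two, ← c.hz, pow_orderOf_eq_one]

theorem z_mem_E : c.z ∈ c.E := ((c.hEp c.z).2 (Or.inr rfl)).1

theorem s_mem_H : c.s ∈ c.H := c.mem_H.2 c.hsz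

theorem card_H : Nat.card ↥c.H = 3 * 2 ^ 13 * 887040 := by
  obtain ⟨f, hf, hk⟩ := c.hquot
  have h := Subgroup.card_mul_index f.ker
  rw [Subgroup.index_ker, MonoidHom.range_eq_top.2 hf, Subgroup.card_top, card_mulAut_M22, hk,
    Nat.card_congr (Subgroup.subgroupOfEquivOfLe c.hNH).toEquiv, c.hNcard] at h
  exact h.symm

theorem seven_factorization_H : Nat.factorization (Nat.card ↥c.H) 7 = 1 := by
  rw [c.card_H, show (3 * 2 ^ 13 * 887040 : ℕ) = 7 * (3 * 2 ^ 13 * 126720) by norm_num,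
    Nat.factorization_mul (by norm_num) (by norm_num), Finsupp.coe_add, Pi.add_apply,
    Nat.Prime.factorization_self (by norm_num),
    Nat.factorization_eq_zero_of_not_dvd (by norm_num)]

/-- Elements of order seven of `H` are conjugate into `⟨s⟩`. -/
theorem conj_into_S {v : G} (hv : Commute v c.z) (ho : orderOf v = 7) :
    ∃ h ∈ c.H, h * v * h⁻¹ ∈ Subgroup.zpowers c.s := by
  have : Fact (Nat.Prime 7) := ⟨by norm_num⟩
  have hsyl : ∀ u : ↥c.H, orderOf u = 7 →
      ∃ P : Sylow 7 ↥c.H, (P : Subgroup ↥c.H) = Subgroup.zpowers u := by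
    intro u hu
    exact ⟨Sylow.ofCard (Subgroup.zpowers u)
      (by rw [Nat.card_zpowers, hu, c.seven_factorization_H, pow_one]), rfl⟩
  obtain ⟨P, hP⟩ := hsyl ⟨v, c.mem_H.2 hv⟩ (by rw [← Subgroup.orderOf_coe]; exact ho)
  obtain ⟨Q, hQ⟩ := hsyl ⟨c.s, c.s_mem_H⟩ (by rw [← Subgroup.orderOf_coe]; exact c.hs)
  obtain ⟨m, hm⟩ := MulAction.exists_smul_eq ↥c.H P Q
  have hmem : m * (⟨v, c.mem_H.2 hv⟩ : ↥c.H) * m⁻¹ ∈
      Subgroup.zpowers (⟨c.s, c.s_mem_H⟩ : ↥c.H) := by
    rw [← hQ, ← hm]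
    simp only [Sylow.coe_subgroup_smul, Subgroup.mem_smul_pointwise_iff_exists]
    exact ⟨_, hP ▸ Subgroup.mem_zpowers _, rfl⟩
  obtain ⟨i, hi⟩ := Subgroup.mem_zpowers_iff.1 hmem
  refine ⟨m, m.2, Subgroup.mem_zpowers_iff.2 ⟨i, ?_⟩⟩
  simpa using congrArg Subtype.val hi

omit [Finite G] in
theorem zpowers_eq_of_mem {v s : G} (hs : orderOf s = 7) (hv : orderOf v = 7)
    (h : v ∈ Subgroup.zpowers s) [Finite G] : Subgroup.zpowers v = Subgroup.zpowers s :=
  Subgroup.eq_of_le_of_card_ge (Subgroup.zpowers_le.2 h)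
    (by rw [Nat.card_zpowers, Nat.card_zpowers, hs, hv])

theorem centralizer_eq {v : G} (hv : orderOf v = 7) (h : v ∈ Subgroup.zpowers c.s) :
    centralizer ({v} : Set G) = centralizer ({c.s} : Set G) := by
  rw [← centralizer_zpowers v, ← centralizer_zpowers c.s, zpowers_eq_of_mem c.hs hv h]

/-- An involution conjugate to `z` commuting with `s` is carried to `z` by an element normalising
`⟨s⟩`. -/
theorem exists_conj_z {u : G} (hu : IsConj c.z u) (hus : Commute u c.s) :
    ∃ g : G, g * u * g⁻¹ = c.z ∧ ∀ x : G, Commute (g * x * g⁻¹) c.s ↔ Commute x c.s := by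
  obtain ⟨g₀, hg₀⟩ := isConj_iff.1 hu.symm
  have h1 : Commute (g₀ * c.s * g₀⁻¹) c.z := by
    rw [← hg₀]
    show g₀ * c.s * g₀⁻¹ * (g₀ * u * g₀⁻¹) = g₀ * u * g₀⁻¹ * (g₀ * c.s * g₀⁻¹)
    rw [conj_mul, conj_mul, hus.eq]
  obtain ⟨h, hh, hmem⟩ := c.conj_into_S h1 ((orderOf_mul_conj _ _).trans c.hs)
  refine ⟨h * g₀, ?_, fun x => ?_⟩
  · calc h * g₀ * u * (h * g₀)⁻¹ = h * (g₀ * u * g₀⁻¹) * h⁻¹ := by group
    _ = c.z := by rw [hg₀]; exact mul_inv_eq_iff_eq_mul.2 (c.mem_H.1 hh).eq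
  · set g := h * g₀
    have hv : g * c.s * g⁻¹ ∈ Subgroup.zpowers c.s := by
      rw [show g * c.s * g⁻¹ = h * (g₀ * c.s * g₀⁻¹) * h⁻¹ by simp only [g]; group]; exact hmem
    have hC := c.centralizer_eq ((orderOf_mul_conj g c.s).trans c.hs) hv
    have h2 : Commute (g * x * g⁻¹) (g * c.s * g⁻¹) ↔ Commute x c.s := by
      unfold Commute SemiconjBy
      rw [conj_mul, conj_mul]
      exact ⟨fun e => mul_left_cancel (mul_right_cancel e), fun e => by rw [e]⟩
    rw [← h2]
    constructor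
    · intro hx
      have : g * x * g⁻¹ ∈ centralizer ({c.s} : Set G) := mem_centralizer_singleton_iff.2 hx.eq
      rw [← hC] at this
      exact mem_centralizer_singleton_iff.1 this
    · intro hx
      have : g * x * g⁻¹ ∈ centralizer ({g * c.s * g⁻¹} : Set G) :=
        mem_centralizer_singleton_iff.2 hx.eq
      rw [hC] at this
      exact mem_centralizer_singleton_iff.1 this

/-- The centraliser and normalizer of `⟨s⟩` in `H`. -/
theorem card_CH :
    Nat.card ↥(c.H ⊓ centralizer ({c.s} : Set G)) =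
      14 * Nat.card ↥(c.N ⊓ centralizer ({c.s} : Set G)) ∧
    Nat.card ↥(c.H ⊓ normalizer (Subgroup.zpowers c.s : Set G)) =
      42 * Nat.card ↥(c.N ⊓ centralizer ({c.s} : Set G)) := by
  have : Fact (Nat.Prime 7) := ⟨by norm_num⟩
  obtain ⟨f, hf, hk⟩ := c.hquot
  set sH : ↥(centralizer ({c.z} : Set G)) := ⟨c.s, c.s_mem_H⟩ with hsH
  have hso : orderOf sH = 7 := by rw [← Subgroup.orderOf_coe]; exact c.hs
  have hker : ¬ 7 ∣ Nat.card f.ker := by
    rw [hk, Nat.card_congr (Subgroup.subgroupOfEquivOfLe c.hNH).toEquiv, c.hNcard]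
    norm_num
  have hψ := orderOf_map_eq f hso hker
  obtain ⟨h14, h42⟩ := m22_aut_seven hψ
  have hkerC : Nat.card ↥(centralizer ({sH} : Set _) ⊓ f.ker) =
      Nat.card ↥(c.N ⊓ centralizer ({c.s} : Set G)) := by
    rw [card_eq_card_inf _ (c.N ⊓ centralizer ({c.s} : Set G))]
    · rw [inf_eq_right.2 (inf_le_left.trans c.hNH)]
    · intro x
      rw [hk]
      simp only [Subgroup.mem_inf, Subgroup.mem_subgroupOf, mem_centralizer_singleton_iff,
        hsH, ← Subtype.coe_inj, Subgroup.coe_mul]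
      exact and_comm
  have hkerN : normalizer (Subgroup.zpowers sH : Set _) ⊓ f.ker =
      centralizer ({sH} : Set _) ⊓ f.ker := by
    ext x
    simp only [Subgroup.mem_inf]
    refine and_congr_left fun hx => ⟨fun hn => ?_, fun hc => ?_⟩
    · have h1 : x * sH * x⁻¹ * sH⁻¹ ∈ Subgroup.zpowers sH ⊓ f.ker := by
        refine Subgroup.mem_inf.2 ⟨Subgroup.mul_mem _ (conj_mem_zpowers hn)
          (Subgroup.inv_mem _ (Subgroup.mem_zpowers _)), ?_⟩
        rw [MonoidHom.mem_ker] at hx ⊢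
        simp [hx]
      have hbot : Subgroup.zpowers sH ⊓ f.ker = ⊥ := by
        refine inf_eq_bot_of_coprime ?_
        rw [Nat.card_zpowers, hso]
        exact (Nat.Prime.coprime_iff_not_dvd (by norm_num)).2 hker
      rw [hbot, Subgroup.mem_bot, mul_inv_eq_one, mul_inv_eq_iff_eq_mul] at h1
      exact mem_centralizer_singleton_iff.2 h1
    · refine mem_normalizer_zpowers ?_
      rw [mul_inv_eq_iff_eq_mul.2 (mem_centralizer_singleton_iff.1 hc)]
      exact Subgroup.mem_zpowers _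
  constructor
  · have h := card_eq_map_mul f (centralizer ({sH} : Set _))
    rw [map_centralizer f hf hso hker, h14, hkerC] at h
    rw [← h, card_eq_card_inf (centralizer ({sH} : Set _)) (centralizer ({c.s} : Set G))]
    · rfl
    · intro x
      simp only [mem_centralizer_singleton_iff, hsH, ← Subtype.coe_inj, Subgroup.coe_mul]
  · have h := card_eq_map_mul f (normalizer (Subgroup.zpowers sH : Set ↥(centralizer ({c.z} : Set G))))
    rw [map_normalizer_zpowers f hf hso hker, h42, hkerN, hkerC] at h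
    rw [← h, card_eq_card_inf (normalizer (Subgroup.zpowers sH : Set ↥(centralizer ({c.z} : Set G))))
      (normalizer (Subgroup.zpowers c.s : Set G))]
    · rfl
    · intro x
      have hz : ∀ w : ↥(centralizer ({c.z} : Set G)),
          w ∈ Subgroup.zpowers sH ↔ (w : G) ∈ Subgroup.zpowers c.s := by
        intro w
        simp only [Subgroup.mem_zpowers_iff, hsH, ← Subtype.coe_inj, SubgroupClass.coe_zpow]
      constructor
      · intro hn
        refine mem_normalizer_zpowers ?_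
        simpa [hsH] using (hz _).1 (conj_mem_zpowers hn)
      · intro hn
        refine mem_normalizer_zpowers ((hz _).2 ?_)
        simpa [hsH] using conj_mem_zpowers hn

/-- An element of order three of `N` commuting with `s`. -/
theorem exists_p : ∃ p : G, orderOf p = 3 ∧ p ∈ c.N ∧ Commute p c.s ∧
    centralizer ({p} : Set G) ≤ centralizer ({c.z} : Set G) ∧
    (∀ x, (x ∈ c.E ∧ Commute x p) ↔ (x = 1 ∨ x = c.z)) := by
  have : Fact (Nat.Prime 3) := ⟨by norm_num⟩
  have hp_H : c.p₀ ∈ c.H := c.hNH c.hpN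
  -- Frattini argument
  have hsN : c.s ∈ normalizer (c.N : Set G) := c.hNn c.s_mem_H
  have hq : c.s * c.p₀ * c.s⁻¹ ∈ c.N := (mem_normalizer_iff.1 hsN _).1 c.hpN
  have hfact : Nat.factorization (Nat.card ↥c.N) 3 = 1 := by
    rw [c.hNcard, Nat.factorization_mul (by norm_num) (by norm_num), Finsupp.coe_add, Pi.add_apply,
      Nat.Prime.factorization_self (by norm_num),
      Nat.factorization_eq_zero_of_not_dvd (by norm_num)]
  have hsyl : ∀ u : ↥c.N, orderOf u = 3 →
      ∃ P : Sylow 3 ↥c.N, (P : Subgroup ↥c.N) = Subgroup.zpowers u := by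
    intro u hu
    exact ⟨Sylow.ofCard (Subgroup.zpowers u)
      (by rw [Nat.card_zpowers, hu, hfact, pow_one]), rfl⟩
  obtain ⟨P, hP⟩ := hsyl ⟨_, hq⟩
    (by rw [← Subgroup.orderOf_coe]; exact (orderOf_mul_conj _ _).trans c.hp₀)
  obtain ⟨Q, hQ⟩ := hsyl ⟨c.p₀, c.hpN⟩ (by rw [← Subgroup.orderOf_coe]; exact c.hp₀)
  obtain ⟨n, hn⟩ := MulAction.exists_smul_eq ↥c.N P Q
  have hmem : n * (⟨_, hq⟩ : ↥c.N) * n⁻¹ ∈ Subgroup.zpowers (⟨c.p₀, c.hpN⟩ : ↥c.N) := by
    rw [← hQ, ← hn]
    simp only [Sylow.coe_subgroup_smul, Subgroup.mem_smul_pointwise_iff_exists]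
    exact ⟨_, hP ▸ Subgroup.mem_zpowers _, rfl⟩
  obtain ⟨i, hi⟩ := Subgroup.mem_zpowers_iff.1 hmem
  set y : G := (n : G) * c.s with hy
  have hyp : y ∈ normalizer (Subgroup.zpowers c.p₀ : Set G) := by
    refine mem_normalizer_zpowers (Subgroup.mem_zpowers_iff.2 ⟨i, ?_⟩)
    have := congrArg Subtype.val hi
    simp only [SubgroupClass.coe_zpow, Subgroup.coe_mul, Subgroup.coe_inv] at this
    rw [this, hy]; group
  have hyH : y ∈ c.H := mul_mem (c.hNH n.2) c.s_mem_H
  obtain ⟨f, hf, hk⟩ := c.hquot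
  have hker : ¬ 7 ∣ Nat.card f.ker := by
    rw [hk, Nat.card_congr (Subgroup.subgroupOfEquivOfLe c.hNH).toEquiv, c.hNcard]
    norm_num
  have h7 : 7 ∣ orderOf y := by
    have : Fact (Nat.Prime 7) := ⟨by norm_num⟩
    have h1 : orderOf (f ⟨c.s, c.s_mem_H⟩) = 7 :=
      orderOf_map_eq f (by rw [← Subgroup.orderOf_coe]; exact c.hs) hker
    have h2 : f ⟨y, hyH⟩ = f ⟨c.s, c.s_mem_H⟩ := by
      have e : (⟨y, hyH⟩ : ↥(centralizer ({c.z} : Set G))) =
          ⟨n, c.hNH n.2⟩ * ⟨c.s, c.s_mem_H⟩ := rfl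
      have hn1 : f ⟨(n : G), c.hNH n.2⟩ = 1 := by
        rw [← MonoidHom.mem_ker, hk]; exact n.2
      rw [e, map_mul, hn1, one_mul]
    have h3 : orderOf y = orderOf (⟨y, hyH⟩ : ↥(centralizer ({c.z} : Set G))) :=
      (Subgroup.orderOf_coe (⟨y, hyH⟩ : ↥(centralizer ({c.z} : Set G))))
    rw [h3, ← h1, ← h2]
    exact orderOf_map_dvd f _
  set v := y ^ (orderOf y / 7) with hv
  have hvo : orderOf v = 7 := by
    rw [hv, orderOf_pow' _ (Nat.div_ne_zero_iff.2 ⟨by norm_num, Nat.le_of_dvd (orderOf_pos y) h7⟩),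
      Nat.gcd_eq_right (Nat.div_dvd_of_dvd h7), Nat.div_div_self h7 (orderOf_pos y).ne']
  have hvN : v ∈ normalizer (Subgroup.zpowers c.p₀ : Set G) := pow_mem hyp _
  have hvp : Commute v c.p₀ := by
    have : Fact (Nat.Prime 7) := ⟨by norm_num⟩
    have hmod := card_inf_centralizer_modEq (r := 7) (Subgroup.zpowers c.p₀) hvN hvo
    rw [Nat.card_zpowers, c.hp₀] at hmod
    have hd : Nat.card ↥(Subgroup.zpowers c.p₀ ⊓ centralizer ({v} : Set G)) ∣ 3 := by
      have := Subgroup.card_dvd_of_le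
        (inf_le_left : Subgroup.zpowers c.p₀ ⊓ centralizer ({v} : Set G) ≤ _)
      rwa [Nat.card_zpowers, c.hp₀] at this
    rcases (Nat.dvd_prime (by norm_num : Nat.Prime 3)).1 hd with e | e
    · rw [e] at hmod; simp [Nat.ModEq] at hmod
    · have := Subgroup.eq_of_le_of_card_ge
        (inf_le_left : Subgroup.zpowers c.p₀ ⊓ centralizer ({v} : Set G) ≤ _)
        (by rw [e, Nat.card_zpowers, c.hp₀])
      have hm : c.p₀ ∈ Subgroup.zpowers c.p₀ ⊓ centralizer ({v} : Set G) := by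
        rw [this]; exact Subgroup.mem_zpowers _
      exact (mem_centralizer_singleton_iff.1 hm.2 : Commute c.p₀ v).symm
  have hvz : Commute v c.z := c.mem_H.1 (pow_mem hyH _)
  obtain ⟨h, hh, hmem⟩ := c.conj_into_S hvz hvo
  refine ⟨h * c.p₀ * h⁻¹, (orderOf_mul_conj _ _).trans c.hp₀,
    (mem_normalizer_iff.1 (c.hNn hh) _).1 c.hpN, ?_, ?_, fun x => ?_⟩
  · have hC := c.centralizer_eq ((orderOf_mul_conj h v).trans hvo) hmem
    have h1 : h * c.p₀ * h⁻¹ ∈ centralizer ({h * v * h⁻¹} : Set G) := by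
      rw [mem_centralizer_singleton_iff, conj_mul, conj_mul, hvp.symm.eq]
    rw [hC] at h1
    exact mem_centralizer_singleton_iff.1 h1
  · intro x hx
    have h1 : Commute (h⁻¹ * x * h) c.p₀ := by
      have e := mem_centralizer_singleton_iff.1 hx
      show h⁻¹ * x * h * c.p₀ = c.p₀ * (h⁻¹ * x * h)
      calc h⁻¹ * x * h * c.p₀ = h⁻¹ * (x * (h * c.p₀ * h⁻¹)) * h := by group
      _ = h⁻¹ * (h * c.p₀ * h⁻¹ * x) * h := by rw [e]
      _ = c.p₀ * (h⁻¹ * x * h) := by group
    have h2 : Commute (h⁻¹ * x * h) c.z :=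
      mem_centralizer_singleton_iff.1 (c.hpC (mem_centralizer_singleton_iff.2 h1.eq))
    have hhz := c.mem_H.1 hh
    have h3 := (hhz.mul_left h2).mul_left hhz.inv_left
    rw [show h * (h⁻¹ * x * h) * h⁻¹ = x by group] at h3
    exact mem_centralizer_singleton_iff.2 h3.eq
  · have hEh := mem_normalizer_iff.1 (c.hEn hh) (h⁻¹ * x * h)
    rw [show h * (h⁻¹ * x * h) * h⁻¹ = x by group] at hEh
    have hcm : Commute x (h * c.p₀ * h⁻¹) ↔ Commute (h⁻¹ * x * h) c.p₀ := by
      unfold Commute SemiconjBy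
      constructor <;> intro e
      · calc h⁻¹ * x * h * c.p₀ = h⁻¹ * (x * (h * c.p₀ * h⁻¹)) * h := by group
        _ = h⁻¹ * (h * c.p₀ * h⁻¹ * x) * h := by rw [e]
        _ = c.p₀ * (h⁻¹ * x * h) := by group
      · calc x * (h * c.p₀ * h⁻¹) = h * (h⁻¹ * x * h * c.p₀) * h⁻¹ := by group
        _ = h * (c.p₀ * (h⁻¹ * x * h)) * h⁻¹ := by rw [e]
        _ = h * c.p₀ * h⁻¹ * x := by group
    rw [← hEh, hcm, c.hEp]
    have hz : h⁻¹ * c.z * h = c.z := by
      rw [mul_assoc, ← (c.mem_H.1 hh).eq, inv_mul_cancel_left]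
    constructor
    · rintro (e | e)
      · left
        calc x = h * (h⁻¹ * x * h) * h⁻¹ := by group
        _ = 1 := by rw [e]; group
      · right
        calc x = h * (h⁻¹ * x * h) * h⁻¹ := by group
        _ = h * (h⁻¹ * c.z * h) * h⁻¹ := by rw [e, hz]
        _ = c.z := by group
    · rintro (rfl | rfl)
      · left; group
      · right; exact hz

theorem card_CN : Nat.card ↥(c.N ⊓ centralizer ({c.s} : Set G)) =
    3 * Nat.card ↥(c.E ⊓ centralizer ({c.s} : Set G)) := by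
  obtain ⟨p, hp, hpN, hps, -, hEp⟩ := c.exists_p
  set A := c.N ⊓ centralizer ({c.s} : Set G)
  set B := c.E ⊓ centralizer ({c.s} : Set G)
  have hBA : B ≤ A := inf_le_inf_right _ c.hEN
  have hEA : c.E ⊓ A = B := by
    rw [show A = c.N ⊓ centralizer ({c.s} : Set G) from rfl, ← inf_assoc, inf_eq_left.2 c.hEN]
  have hpE : p ∉ c.E := fun h => by
    have := c.hEcard ▸ Subgroup.orderOf_dvd_natCard _ h
    rw [hp] at this
    norm_num at this
  have hne : B.relIndex A ≠ 1 := fun e => hpE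
    ((Subgroup.relIndex_eq_one.1 e) ⟨hpN, mem_centralizer_singleton_iff.2 hps.eq⟩).1
  have hrelE : c.E.relIndex c.N = 3 := by
    have h := Subgroup.relIndex_mul_relIndex ⊥ c.E c.N bot_le c.hEN
    rw [Subgroup.relIndex_bot_left, Subgroup.relIndex_bot_left, c.hEcard, c.hNcard] at h
    omega
  have h3 : B.relIndex A ∣ 3 := by
    rw [← hEA, Subgroup.inf_relIndex_right, ← hrelE]
    have : (c.E.subgroupOf c.N).Normal :=
      (Subgroup.normal_subgroupOf_iff_le_normalizer c.hEN).2 (c.hNH.trans c.hEn)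
    have hAN : A ≤ c.N := inf_le_left
    rw [← Subgroup.relIndex_subgroupOf hAN]
    exact Subgroup.relIndex_dvd_index_of_normal _ _
  have e : B.relIndex A = 3 := ((Nat.dvd_prime (by norm_num : Nat.Prime 3)).1 h3).resolve_left hne
  have h := Subgroup.relIndex_mul_relIndex ⊥ B A bot_le hBA
  rw [Subgroup.relIndex_bot_left, Subgroup.relIndex_bot_left, e] at h
  omega

/-- The fixed points of `s` on `E` have order 2 or `2^7`. -/
theorem card_CE : Nat.card ↥(c.E ⊓ centralizer ({c.s} : Set G)) = 2 ∨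
    Nat.card ↥(c.E ⊓ centralizer ({c.s} : Set G)) = 2 ^ 7 := by
  have : Fact (Nat.Prime 7) := ⟨by norm_num⟩
  obtain ⟨p, hp, hpN, hps, -, hEp⟩ := c.exists_p
  set B := c.E ⊓ centralizer ({c.s} : Set G)
  have hd : Nat.card B ∣ 2 ^ 13 := c.hEcard ▸ Subgroup.card_dvd_of_le inf_le_left
  obtain ⟨e, he, hBe⟩ := (Nat.dvd_prime_pow (by norm_num : Nat.Prime 2)).1 hd
  have h7 := card_inf_centralizer_modEq (r := 7) c.E (c.hEn c.s_mem_H) c.hs
  rw [c.hEcard] at h7
  change 2 ^ 13 ≡ Nat.card B [MOD 7] at h7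
  have hpB : p ∈ normalizer (B : Set G) := by
    have hpE := c.hEn (c.hNH hpN)
    rw [mem_normalizer_iff] at hpE ⊢
    intro x
    have hc : Commute x c.s ↔ Commute (p * x * p⁻¹) c.s := by
      constructor
      · intro hx; exact (hps.mul_left hx).mul_left hps.inv_left
      · intro hx
        have := (hps.inv_left.mul_left hx).mul_left hps
        simpa [mul_assoc] using this
    simp only [B, Subgroup.mem_inf, mem_centralizer_singleton_iff]
    exact and_congr (hpE x) hc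
  have : Fact (Nat.Prime 3) := ⟨by norm_num⟩
  have h3 := card_inf_centralizer_modEq (r := 3) B hpB hp
  have hBp : Nat.card ↥(B ⊓ centralizer ({p} : Set G)) = 2 := by
    have e : B ⊓ centralizer ({p} : Set G) = Subgroup.zpowers c.z := by
      ext x
      constructor
      · rintro ⟨⟨hxE, -⟩, hxp⟩
        rcases (hEp x).1 ⟨hxE, mem_centralizer_singleton_iff.1 hxp⟩ with rfl | rfl
        · exact one_mem _
        · exact Subgroup.mem_zpowers _
      · intro hx
        have hzB : c.z ∈ B ⊓ centralizer ({p} : Set G) := by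
          refine ⟨⟨c.z_mem_E, mem_centralizer_singleton_iff.2 c.hsz.symm.eq⟩, ?_⟩
          exact mem_centralizer_singleton_iff.2 ((hEp c.z).2 (Or.inr rfl)).2
        exact Subgroup.zpowers_le.2 hzB hx
    rw [e, Nat.card_zpowers, c.hz]
  rw [hBp, hBe] at h3
  rw [hBe] at h7 ⊢
  have hne : e ≠ 13 := by
    intro h
    have hB : B = c.E := Subgroup.eq_of_le_of_card_ge inf_le_left (by rw [hBe, h, c.hEcard])
    have hsE : c.s ∈ c.E := c.hCE c.s c.hsz fun y hy => by
      have : y ∈ B := hB ▸ hy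
      exact (mem_centralizer_singleton_iff.1 this.2 : Commute y c.s).symm
    have := c.hEcard ▸ Subgroup.orderOf_dvd_natCard _ hsE
    rw [c.hs] at this
    norm_num at this
  interval_cases e <;> simp_all [Nat.ModEq]

/-- `V` contains `w`. -/
theorem self_mem {w : G} {V K : Subgroup G} (hd : TData w V K) : w ∈ V := by
  obtain ⟨hV, hK, hn, -, -, hKV, hsup, ⟨e⟩⟩ := hd
  have hw : w ∈ K ⊔ V := by rw [hsup]; exact mem_centralizer_singleton_iff.2 rfl
  obtain ⟨k, hk, v, hv, rfl⟩ := exists_mul_of_mem_sup (hK.trans hn) hw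
  suffices k = 1 by rw [this, one_mul]; exact hv
  have hcent : ∀ φ, Commute (e ⟨k, hk⟩) φ := by
    intro φ
    obtain ⟨⟨a, ha⟩, rfl⟩ := e.surjective φ
    show e ⟨k, hk⟩ * e ⟨a, ha⟩ = e ⟨a, ha⟩ * e ⟨k, hk⟩
    rw [← map_mul, ← map_mul]
    congr 1
    refine Subtype.ext ?_
    show k * a = a * k
    have ha' : Commute a (k * v) := mem_centralizer_singleton_iff.1 (hK ha)
    have hkv : a * k * a⁻¹ * (a * v * a⁻¹) = k * v := by
      rw [conj_mul]; exact mul_inv_eq_iff_eq_mul.2 ha'.eq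
    have h1 : k⁻¹ * (a * k * a⁻¹) = v * (a * v * a⁻¹)⁻¹ := by
      calc k⁻¹ * (a * k * a⁻¹) = k⁻¹ * (a * k * a⁻¹ * (a * v * a⁻¹)) * (a * v * a⁻¹)⁻¹ := by group
      _ = v * (a * v * a⁻¹)⁻¹ := by rw [hkv]; group
    have h2 : k⁻¹ * (a * k * a⁻¹) ∈ K ⊓ V := by
      refine Subgroup.mem_inf.2 ⟨K.mul_mem (K.inv_mem hk) (K.mul_mem (K.mul_mem ha hk) (K.inv_mem ha)), ?_⟩
      rw [h1]
      exact mul_mem hv (inv_mem ((mem_normalizer_iff.1 (hn (hK ha)) v).1 hv))
    rw [hKV, Subgroup.mem_bot, inv_mul_eq_one, eq_mul_inv_iff_mul_eq] at h2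
    exact h2
  have := mulAut_center hcent
  rw [← map_one e] at this
  exact congrArg Subtype.val (e.injective this)

include c in
/-- The subgroup `V` depends only on the member of it. -/
theorem V_eq {w w' : G} {V K V' K' : Subgroup G} (hd : TData w V K) (hd' : TData w' V' K')
    (hmem : w' ∈ V) : V = V' := by
  obtain ⟨-, -, -, hVe, hVc, -⟩ := hd
  obtain ⟨hV', -, hn', hV'e, hV'c, -⟩ := hd'
  have hVC : V ≤ centralizer ({w'} : Set G) := fun x hx =>
    mem_centralizer_singleton_iff.2 (by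
      have := hVe.1
      exact congrArg Subtype.val (mul_comm' (⟨x, hx⟩ : V) ⟨w', hmem⟩))
  have hP : IsPGroup 2 ↥(V ⊔ V') :=
    (IsPGroup.of_card hVc).to_sup_of_normal_right' (IsPGroup.of_card hV'c) (hVC.trans hn')
  obtain ⟨T, hT⟩ := hP.exists_le_sylow
  exact c.elem_unique T V V' (le_sup_left.trans hT) hVe hVc (le_sup_right.trans hT) hV'e hV'c

/-- The centraliser of an element of order seven in `C(w)`. -/
theorem tdata_seven {w v : G} {V K : Subgroup G} (hd : TData w V K) (hv : Commute v w)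
    (ho : orderOf v = 7) :
    Nat.card ↥(centralizer ({w} : Set G) ⊓ centralizer ({v} : Set G)) =
        14 * Nat.card ↥(V ⊓ centralizer ({v} : Set G)) ∧
      Nat.card ↥(V ⊓ centralizer ({v} : Set G)) % 7 = 4 ∧
      (∃ g : G, orderOf g = 2 ∧ Commute g w ∧ Commute g v ∧ g ∉ V) ∧
      ∀ D : Subgroup G, IsPGroup 2 ↥D →
        D ≤ centralizer ({w} : Set G) ⊓ centralizer ({v} : Set G) →
        Nat.card D ≤ 2 * Nat.card ↥(D ⊓ V) := by
  have : Fact (Nat.Prime 7) := ⟨by norm_num⟩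
  obtain ⟨hV, hK, hn, hVe, hVc, hKV, hsup, ⟨e⟩⟩ := hd
  set C := centralizer ({w} : Set G) with hC
  have hVn : (V.subgroupOf C).Normal := (Subgroup.normal_subgroupOf_iff_le_normalizer hV).2 hn
  let ι : ↥K →* ↥C ⧸ V.subgroupOf C := (QuotientGroup.mk' _).comp (Subgroup.inclusion hK)
  have hι : Function.Bijective ι := by
    constructor
    · rw [← MonoidHom.ker_eq_bot_iff, Subgroup.eq_bot_iff_forall]
      intro x hx
      rw [MonoidHom.mem_ker, MonoidHom.comp_apply, QuotientGroup.mk'_apply,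
        QuotientGroup.eq_one_iff, Subgroup.mem_subgroupOf] at hx
      have : (x : G) ∈ K ⊓ V := ⟨x.2, hx⟩
      rw [hKV, Subgroup.mem_bot] at this
      exact Subtype.ext this
    · intro q
      induction q using QuotientGroup.induction_on with
      | H x =>
        have hx : (x : G) ∈ K ⊔ V := by rw [hsup]; exact x.2
        obtain ⟨k, hk, a, ha, he⟩ := exists_mul_of_mem_sup (hK.trans hn) hx
        refine ⟨⟨k, hk⟩, ?_⟩
        rw [MonoidHom.comp_apply, QuotientGroup.mk'_apply, QuotientGroup.eq,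
          Subgroup.mem_subgroupOf]
        show k⁻¹ * (x : G) ∈ V
        rw [← he, inv_mul_cancel_left]; exact ha
  let f : ↥C →* MulAut ↥Cfsg.Spor.M22 :=
    ((MulEquiv.ofBijective ι hι).symm.trans e).toMonoidHom.comp (QuotientGroup.mk' _)
  have hf : Function.Surjective f :=
    ((MulEquiv.ofBijective ι hι).symm.trans e).surjective.comp (QuotientGroup.mk'_surjective _)
  have hk : f.ker = V.subgroupOf C := by
    ext x
    simp only [f, MonoidHom.mem_ker, MonoidHom.comp_apply, MulEquiv.coe_toMonoidHom,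
      EmbeddingLike.map_eq_one_iff, QuotientGroup.mk'_apply, QuotientGroup.eq_one_iff]
  set vC : ↥C := ⟨v, mem_centralizer_singleton_iff.2 hv.eq⟩ with hvC
  have hvo : orderOf vC = 7 := by rw [← Subgroup.orderOf_coe]; exact ho
  have hker : ¬ 7 ∣ Nat.card f.ker := by
    rw [hk, Nat.card_congr (Subgroup.subgroupOfEquivOfLe hV).toEquiv, hVc]
    norm_num
  have h14 := (m22_aut_seven (orderOf_map_eq f hvo hker)).1
  have hmap := map_centralizer f hf hvo hker
  have hcardC : Nat.card (centralizer ({vC} : Set ↥C)) =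
      Nat.card ↥(C ⊓ centralizer ({v} : Set G)) := by
    rw [card_eq_card_inf (centralizer ({vC} : Set ↥C)) (centralizer ({v} : Set G))]
    intro x
    simp only [mem_centralizer_singleton_iff, hvC, ← Subtype.coe_inj, Subgroup.coe_mul]
  have hkerC : Nat.card ↥(centralizer ({vC} : Set ↥C) ⊓ f.ker) =
      Nat.card ↥(V ⊓ centralizer ({v} : Set G)) := by
    rw [card_eq_card_inf _ (V ⊓ centralizer ({v} : Set G)), inf_eq_right.2 (inf_le_left.trans hV)]
    intro x
    rw [hk]
    simp only [Subgroup.mem_inf, Subgroup.mem_subgroupOf, mem_centralizer_singleton_iff,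
      hvC, ← Subtype.coe_inj, Subgroup.coe_mul]
    exact and_comm
  have hcard := card_eq_map_mul f (centralizer ({vC} : Set ↥C))
  rw [hmap, h14, hcardC, hkerC] at hcard
  refine ⟨hcard, ?_, ?_, ?_⟩
  · have h := card_inf_centralizer_modEq (r := 7) V (hn (mem_centralizer_singleton_iff.2 hv.eq)) ho
    rw [hVc] at h
    simp only [Nat.ModEq] at h
    norm_num at h
    exact h.symm
  · -- a complement containing `v`
    obtain ⟨y, hy⟩ := hι.2 (QuotientGroup.mk' _ vC)
    have hy7 : orderOf (y : G) = 7 := by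
      rw [Subgroup.orderOf_coe, ← orderOf_injective ι hι.1, hy]
      have h1 : orderOf (QuotientGroup.mk' (V.subgroupOf C) vC) = 7 :=
        orderOf_map_eq _ hvo (by
          rw [QuotientGroup.ker_mk']; rw [← hk]; exact hker)
      exact h1
    set yC : ↥C := ⟨(y : G), hK y.2⟩ with hyC
    have hyo : orderOf yC = 7 := by rw [← Subgroup.orderOf_coe]; exact hy7
    set M := (Subgroup.zpowers (f vC)).comap f with hM
    have hfy : f yC = f vC := by
      have : QuotientGroup.mk' (V.subgroupOf C) yC = QuotientGroup.mk' _ vC := hy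
      simp only [f, MonoidHom.comp_apply, this]
    have hMcard : Nat.card M = 7 * Nat.card f.ker := by
      rw [card_eq_map_mul f M, hM, Subgroup.map_comap_eq_self_of_surjective hf, Nat.card_zpowers,
        orderOf_map_eq f hvo hker, ← hM]
      congr 2
      have hle : f.ker ≤ M := by
        intro x hx
        show f x ∈ Subgroup.zpowers (f vC)
        rw [MonoidHom.mem_ker.1 hx]
        exact Subgroup.one_mem _
      rw [inf_eq_right.2 hle]
    have hsyl : ∀ u : ↥M, orderOf u = 7 →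
        ∃ P : Sylow 7 ↥M, (P : Subgroup ↥M) = Subgroup.zpowers u := by
      intro u hu
      refine ⟨Sylow.ofCard (Subgroup.zpowers u) ?_, rfl⟩
      rw [Nat.card_zpowers, hu, hMcard, Nat.factorization_mul (by norm_num) Nat.card_pos.ne',
        Finsupp.coe_add, Pi.add_apply, Nat.Prime.factorization_self (by norm_num),
        Nat.factorization_eq_zero_of_not_dvd hker, add_zero, pow_one]
    have hvM : vC ∈ M := Subgroup.mem_zpowers (f vC)
    have hyM : yC ∈ M := by
      show f yC ∈ Subgroup.zpowers (f vC)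
      rw [hfy]; exact Subgroup.mem_zpowers _
    obtain ⟨P, hP⟩ := hsyl ⟨vC, hvM⟩ (by rw [← Subgroup.orderOf_coe]; exact hvo)
    obtain ⟨P', hP'⟩ := hsyl ⟨yC, hyM⟩ (by rw [← Subgroup.orderOf_coe]; exact hyo)
    obtain ⟨m, hm⟩ := MulAction.exists_smul_eq ↥M P P'
    have hmem : m * (⟨vC, hvM⟩ : ↥M) * m⁻¹ ∈ Subgroup.zpowers (⟨yC, hyM⟩ : ↥M) := by
      rw [← hP', ← hm]
      simp only [Sylow.coe_subgroup_smul, Subgroup.mem_smul_pointwise_iff_exists]
      exact ⟨_, hP ▸ Subgroup.mem_zpowers _, rfl⟩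
    obtain ⟨i, hi⟩ := Subgroup.mem_zpowers_iff.1 hmem
    have hi' : ((m : ↥C) : G) * v * ((m : ↥C) : G)⁻¹ = (y : G) ^ i := by
      have := congrArg (fun x : ↥M => ((x : ↥C) : G)) hi
      simp only [SubgroupClass.coe_zpow, Subgroup.coe_mul, Subgroup.coe_inv] at this
      exact this.symm
    -- an involution of the complement centralising `y`
    have : Fact (Nat.Prime 2) := ⟨Nat.prime_two⟩
    have hey : orderOf (e y) = 7 := by rw [MulEquiv.orderOf_eq, ← Subgroup.orderOf_coe]; exact hy7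
    obtain ⟨b, hb⟩ := exists_prime_orderOf_dvd_card'
      (G := ↥(centralizer ({e y} : Set (MulAut ↥Cfsg.Spor.M22)))) 2
      (by rw [(m22_aut_seven hey).1]; norm_num)
    set a : ↥K := e.symm (b : MulAut ↥Cfsg.Spor.M22) with ha
    have hao : orderOf (a : G) = 2 := by
      rw [Subgroup.orderOf_coe, ha, MulEquiv.orderOf_eq, Subgroup.orderOf_coe, hb]
    have hay : Commute (a : G) (y : G) := by
      have h1 : (b : MulAut ↥Cfsg.Spor.M22) * e y = e y * b :=
        mem_centralizer_singleton_iff.1 b.2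
      have := congrArg e.symm h1
      rw [map_mul, map_mul, MulEquiv.symm_apply_apply] at this
      exact congrArg Subtype.val this
    set mm : G := ((m : ↥C) : G) with hmm
    refine ⟨mm⁻¹ * (a : G) * mm, ?_, ?_, ?_, ?_⟩
    · have h := orderOf_mul_conj mm⁻¹ (a : G)
      rw [inv_inv, hao] at h
      exact h
    · have h1 : Commute (a : G) w := mem_centralizer_singleton_iff.1 (hK a.2)
      have h2 : Commute mm w := mem_centralizer_singleton_iff.1 (m : ↥C).2
      exact (h2.inv_left.mul_left h1).mul_left h2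
    · have h1 : Commute (a : G) ((y : G) ^ i) := hay.zpow_right i
      rw [← hi'] at h1
      show mm⁻¹ * (a : G) * mm * v = v * (mm⁻¹ * (a : G) * mm)
      calc mm⁻¹ * (a : G) * mm * v = mm⁻¹ * ((a : G) * (mm * v * mm⁻¹)) * mm := by group
      _ = mm⁻¹ * (mm * v * mm⁻¹ * (a : G)) * mm := by rw [h1.eq]
      _ = v * (mm⁻¹ * (a : G) * mm) := by group
    · intro hmV
      have haV : (a : G) ∈ V := by
        have := (mem_normalizer_iff.1 (hn (m : ↥C).2) _).1 hmV
        rwa [show ((m : ↥C) : G) * (mm⁻¹ * (a : G) * mm) * ((m : ↥C) : G)⁻¹ = (a : G) by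
          rw [← hmm]; group] at this
      have h0 : (a : G) ∈ K ⊓ V := ⟨a.2, haV⟩
      rw [hKV, Subgroup.mem_bot] at h0
      rw [h0, orderOf_one] at hao
      omega
  · intro D hD hDle
    set D' := D.subgroupOf C with hD'
    have hcD : Nat.card D' = Nat.card D :=
      Nat.card_congr (Subgroup.subgroupOfEquivOfLe (hDle.trans inf_le_left)).toEquiv
    have h := card_eq_map_mul f D'
    have hle : D'.map f ≤ centralizer ({f vC} : Set (MulAut ↥Cfsg.Spor.M22)) := by
      rw [← hmap]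
      refine Subgroup.map_mono fun x hx => ?_
      exact mem_centralizer_singleton_iff.2 (Subtype.ext
        (mem_centralizer_singleton_iff.1 (hDle hx).2))
    have hd14 := h14 ▸ Subgroup.card_dvd_of_le hle
    have h2 : Nat.card (D'.map f) ≤ 2 := by
      obtain ⟨n, hn'⟩ := IsPGroup.iff_card.1 hD
      have hdd : Nat.card (D'.map f) ∣ 2 ^ n := by rw [← hn', ← hcD, h]; exact dvd_mul_right _ _
      have hcop : Nat.Coprime (Nat.card (D'.map f)) 7 :=
        Nat.Coprime.coprime_dvd_left hdd (Nat.Coprime.pow_left _ (by norm_num))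
      exact Nat.le_of_dvd (by norm_num) (hcop.dvd_of_dvd_mul_right (show _ ∣ 2 * 7 from hd14))
    have hk2 : Nat.card ↥(D' ⊓ f.ker) = Nat.card ↥(D ⊓ V) := by
      rw [card_eq_card_inf _ (D ⊓ V), inf_eq_right.2 (inf_le_right.trans hV)]
      intro x
      rw [hk]
      simp only [hD', Subgroup.mem_inf, Subgroup.mem_subgroupOf]
    rw [← hcD, h, hk2]
    exact Nat.mul_le_mul_right _ h2

/-- Two-subgroups of `C_H(s)` meet `E` in index at most two. -/
theorem two_group_H {D : Subgroup G} (hD : IsPGroup 2 ↥D)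
    (hDle : D ≤ c.H ⊓ centralizer ({c.s} : Set G)) :
    Nat.card D ≤ 2 * Nat.card ↥(D ⊓ c.E) := by
  have : Fact (Nat.Prime 7) := ⟨by norm_num⟩
  obtain ⟨f, hf, hk⟩ := c.hquot
  set sH : ↥(centralizer ({c.z} : Set G)) := ⟨c.s, c.s_mem_H⟩ with hsH
  have hso : orderOf sH = 7 := by rw [← Subgroup.orderOf_coe]; exact c.hs
  have hker : ¬ 7 ∣ Nat.card f.ker := by
    rw [hk, Nat.card_congr (Subgroup.subgroupOfEquivOfLe c.hNH).toEquiv, c.hNcard]
    norm_num
  have h14 := (m22_aut_seven (orderOf_map_eq f hso hker)).1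
  set D' := D.subgroupOf (centralizer ({c.z} : Set G)) with hD'
  have hcD : Nat.card D' = Nat.card D :=
    Nat.card_congr (Subgroup.subgroupOfEquivOfLe (hDle.trans inf_le_left)).toEquiv
  have h := card_eq_map_mul f D'
  have hle : D'.map f ≤ centralizer ({f sH} : Set (MulAut ↥Cfsg.Spor.M22)) := by
    rw [← map_centralizer f hf hso hker]
    refine Subgroup.map_mono fun x hx => ?_
    exact mem_centralizer_singleton_iff.2 (Subtype.ext
      (mem_centralizer_singleton_iff.1 (hDle hx).2))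
  have hd14 := h14 ▸ Subgroup.card_dvd_of_le hle
  obtain ⟨n, hn⟩ := IsPGroup.iff_card.1 hD
  have h2 : Nat.card (D'.map f) ≤ 2 := by
    have hdd : Nat.card (D'.map f) ∣ 2 ^ n := by rw [← hn, ← hcD, h]; exact dvd_mul_right _ _
    have hcop : Nat.Coprime (Nat.card (D'.map f)) 7 :=
      Nat.Coprime.coprime_dvd_left hdd (Nat.Coprime.pow_left _ (by norm_num))
    exact Nat.le_of_dvd (by norm_num) (hcop.dvd_of_dvd_mul_right (show _ ∣ 2 * 7 from hd14))
  have hk2 : Nat.card ↥(D' ⊓ f.ker) = Nat.card ↥(D ⊓ c.N) := by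
    rw [card_eq_card_inf _ (D ⊓ c.N), inf_eq_right.2 (inf_le_right.trans c.hNH)]
    intro x
    rw [hk]
    simp only [hD', Subgroup.mem_inf, Subgroup.mem_subgroupOf]
  have hNE : D ⊓ c.N ≤ c.E := by
    have hEN' : (c.E.subgroupOf c.N).Normal :=
      (Subgroup.normal_subgroupOf_iff_le_normalizer c.hEN).2 (c.hNH.trans c.hEn)
    intro x hx
    set q := QuotientGroup.mk' (c.E.subgroupOf c.N) ⟨x, hx.2⟩
    have h3 : orderOf q ∣ 3 := by
      have h' := _root_.orderOf_dvd_natCard q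
      have hidx : Nat.card (↥c.N ⧸ c.E.subgroupOf c.N) = 3 := by
        have h := Subgroup.card_mul_index (c.E.subgroupOf c.N)
        rw [Nat.card_congr (Subgroup.subgroupOfEquivOfLe c.hEN).toEquiv, c.hEcard, c.hNcard] at h
        change (c.E.subgroupOf c.N).index = 3
        omega
      rwa [hidx] at h'
    have h2' : orderOf q ∣ 2 ^ n := by
      refine (orderOf_map_dvd _ _).trans ?_
      rw [← Subgroup.orderOf_coe, ← hn]
      exact Subgroup.orderOf_dvd_natCard _ hx.1
    have h1 : orderOf q ∣ Nat.gcd 3 (2 ^ n) := Nat.dvd_gcd h3 h2'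
    rw [(Nat.Coprime.pow_right n (by norm_num) : Nat.Coprime 3 (2 ^ n)).gcd_eq_one, Nat.dvd_one,
      orderOf_eq_one_iff] at h1
    exact (QuotientGroup.eq_one_iff (⟨x, hx.2⟩ : ↥c.N)).1 h1
  rw [← hcD, h, hk2]
  refine Nat.mul_le_mul h2 (Subgroup.card_le_of_le ?_)
  exact fun x hx => ⟨hx.1, hNE hx⟩

end Conf

end CfsgLib.J4Seven39
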