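import Cfsg.Agent.J4Seven39.Basic
import Cfsg.Agent.ZStar.Theorem
import Cfsg.Agent.BaerSuzuki.Classes

/-!
# A recognition of the symmetric group of degree five by centralisers

A finite group with an involution `z` whose centraliser has order 12, an element `p` of order 3
commuting with `z` whose centraliser has order 6, all centralisers of involutions of order 12 or 8,
and some of order 8, is isomorphic to the symmetric group of degree five.
-/

namespace CfsgLib.J4Seven39

open Subgroup CfsgLib.Involution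

variable {X : Type*} [Group X] [Finite X]

local notation "C[" x "]" => centralizer ({x} : Set _)

/-- The data: `c` has centraliser of order 8, `z` commutes with `c`. -/
structure CoreData (X : Type*) [Group X] where
  c : X
  z : X
  p : X
  hc : orderOf c = 2
  hz : orderOf z = 2
  hp : orderOf p = 3
  cardC : Nat.card (centralizer ({c} : Set X)) = 8
  cardZ : Nat.card (centralizer ({z} : Set X)) = 12
  cardP : Nat.card (centralizer ({p} : Set X)) = 6
  hcz : Commute c z
  hpz : Commute p z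
  hinv : ∀ x : X, orderOf x = 2 →
    Nat.card (centralizer ({x} : Set X)) = 12 ∨ Nat.card (centralizer ({x} : Set X)) = 8

namespace CoreData

variable (D : CoreData X)

omit [Finite X] in
theorem cc : D.c * D.c = 1 := mul_self_of_orderOf_two D.hc

omit [Finite X] in
theorem zz : D.z * D.z = 1 := mul_self_of_orderOf_two D.hz

omit [Finite X] in
theorem c_ne_one : D.c ≠ 1 := ne_one_of_orderOf_two D.hc

omit [Finite X] in
theorem z_ne_one : D.z ≠ 1 := ne_one_of_orderOf_two D.hz

omit [Finite X] in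
theorem z_ne_c : D.z ≠ D.c := fun e => by
  have := D.cardZ; rw [e, D.cardC] at this; omega

omit [Finite X] in
theorem zc_ne_one : D.z * D.c ≠ 1 := fun e => D.z_ne_c <| by
  calc D.z = D.z * (D.c * D.c) := by rw [D.cc, mul_one]
  _ = D.c := by rw [← mul_assoc, e, one_mul]

/-- An element commuting with `c` and `z` is one of `1, z, c, zc`. -/
theorem mem_four {y : X} (h1 : Commute y D.c) (h2 : Commute y D.z) :
    y = 1 ∨ y = D.z ∨ y = D.c ∨ y = D.z * D.c := by
  classical
  let F : Subgroup X := C[D.c] ⊓ C[D.z]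
  have hF : Nat.card F ≤ 4 := by
    have h8 : Nat.card F ∣ 8 := D.cardC ▸ card_dvd_of_le inf_le_left
    have h12 : Nat.card F ∣ 12 := D.cardZ ▸ card_dvd_of_le inf_le_right
    have := Nat.dvd_gcd h8 h12
    norm_num at this
    exact Nat.le_of_dvd (by norm_num) this
  let S : Set X := {1, D.z, D.c, D.z * D.c}
  have hS : S ⊆ (F : Set X) := by
    have hc : D.c ∈ F := ⟨mem_centralizer_singleton_iff.mpr rfl,
      mem_centralizer_singleton_iff.mpr D.hcz.eq⟩
    have hz : D.z ∈ F := ⟨mem_centralizer_singleton_iff.mpr D.hcz.symm.eq,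
      mem_centralizer_singleton_iff.mpr rfl⟩
    rintro w (rfl | rfl | rfl | rfl)
    · exact F.one_mem
    · exact hz
    · exact hc
    · exact F.mul_mem hz hc
  have hcardS : S.ncard = 4 := by
    have a1 : (1 : X) ≠ D.z := D.z_ne_one.symm
    have a2 : (1 : X) ≠ D.c := D.c_ne_one.symm
    have a3 : (1 : X) ≠ D.z * D.c := D.zc_ne_one.symm
    have a4 := D.z_ne_c
    have a5 : D.z ≠ D.z * D.c := fun e => D.c_ne_one (mul_eq_left.mp e.symm)
    have a6 : D.c ≠ D.z * D.c := fun e => D.z_ne_one (mul_eq_right.mp e.symm)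
    rw [Set.ncard_insert_of_notMem (by simp [a1, a2, a3]),
      Set.ncard_insert_of_notMem (by simp [a4, a5]), Set.ncard_pair a6]
  have heq : S = (F : Set X) := by
    refine Set.eq_of_subset_of_ncard_le hS ?_
    rw [hcardS]
    calc (F : Set X).ncard = Nat.card F := (Nat.card_coe_set_eq _).symm
    _ ≤ 4 := hF
  have hy : y ∈ (F : Set X) :=
    ⟨mem_centralizer_singleton_iff.mpr h1.eq, mem_centralizer_singleton_iff.mpr h2.eq⟩
  rw [← heq] at hy
  exact hy

theorem card_inf_z : 2 * Nat.card ↥(C[D.c] ⊓ C[D.z]) = Nat.card (centralizer ({D.c} : Set X)) := by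
  classical
  have h8 : Nat.card ↥(C[D.c] ⊓ C[D.z]) ∣ 8 := D.cardC ▸ card_dvd_of_le inf_le_left
  have h12 : Nat.card ↥(C[D.c] ⊓ C[D.z]) ∣ 12 := D.cardZ ▸ card_dvd_of_le inf_le_right
  have h4 : Nat.card ↥(C[D.c] ⊓ C[D.z]) ∣ 4 := by simpa using Nat.dvd_gcd h8 h12
  have hge : 3 ≤ Nat.card ↥(C[D.c] ⊓ C[D.z]) := by
    have hc : D.c ∈ C[D.c] ⊓ C[D.z] := ⟨mem_centralizer_singleton_iff.mpr rfl,
      mem_centralizer_singleton_iff.mpr D.hcz.eq⟩
    have hz : D.z ∈ C[D.c] ⊓ C[D.z] := ⟨mem_centralizer_singleton_iff.mpr D.hcz.symm.eq,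
      mem_centralizer_singleton_iff.mpr rfl⟩
    have hsub : ({1, D.z, D.c} : Set X) ⊆ ((C[D.c] ⊓ C[D.z] : Subgroup X) : Set X) := by
      rintro w (rfl | rfl | rfl)
      · exact Subgroup.one_mem _
      · exact hz
      · exact hc
    have h3 : ({1, D.z, D.c} : Set X).ncard = 3 := by
      rw [Set.ncard_insert_of_notMem (by simp [D.z_ne_one.symm, D.c_ne_one.symm]),
        Set.ncard_pair D.z_ne_c]
    have := Set.ncard_le_ncard hsub
    rw [h3, ← Nat.card_coe_set_eq] at this
    exact this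
  rw [D.cardC]
  have := Nat.le_of_dvd (by norm_num) h4
  interval_cases (Nat.card ↥(C[D.c] ⊓ C[D.z])) <;> omega

/-- There is an involution `a` commuting with `c` that conjugates `z` to `zc`. -/
theorem exists_a : ∃ a : X, orderOf a = 2 ∧ Commute a D.c ∧ a * D.z * a⁻¹ = D.z * D.c := by
  obtain ⟨x, hxc, hxz⟩ : ∃ x, x ∈ centralizer ({D.c} : Set X) ∧ ¬ Commute x D.z := by
    by_contra hne
    push Not at hne
    have hle : centralizer ({D.c} : Set X) ≤ centralizer ({D.z} : Set X) :=
      fun x hx => mem_centralizer_singleton_iff.mpr (hne x hx).eq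
    have := card_dvd_of_le hle
    rw [D.cardC, D.cardZ] at this
    norm_num at this
  have hxc' : Commute x D.c := mem_centralizer_singleton_iff.mp hxc
  have hzT : D.z ∈ centralizer ({D.c} : Set X) :=
    mem_centralizer_singleton_iff.mpr D.hcz.symm.eq
  have hxi : ¬ Commute x⁻¹ D.z := fun h => hxz (by simpa using h.inv_left)
  have hxzz : ¬ Commute (x * D.z) D.z := fun h =>
    hxz (by simpa using h.mul_left (Commute.refl D.z).inv_left)
  have hconj : Commute (x * D.z * x⁻¹) D.z :=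
    commute_of_index_two D.card_inf_z (mul_mem hxc hzT) (inv_mem hxc) hxzz hxi
  have hconjc : Commute (x * D.z * x⁻¹) D.c :=
    (hxc'.mul_left D.hcz.symm).mul_left hxc'.inv_left
  have hx2c : Commute (x * x) D.c := hxc'.mul_left hxc'
  have hx2z : Commute (x * x) D.z := commute_of_index_two D.card_inf_z hxc hxc hxz hxz
  have hzc : x * D.z * x⁻¹ = D.z * D.c := by
    rcases D.mem_four hconjc hconj with h | h | h | h
    · exact absurd (conj_eq_one_iff.mp h) D.z_ne_one
    · exact absurd (mul_inv_eq_iff_eq_mul.mp h) hxz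
    · exfalso
      have h' : x * D.z = x * D.c := by
        rw [mul_inv_eq_iff_eq_mul.mp h, hxc'.symm.eq]
      exact D.z_ne_c (mul_left_cancel h')
    · exact h
  have hxne : x ≠ 1 := fun e => hxz (e ▸ Commute.one_left _)
  rcases D.mem_four hx2c hx2z with h | h | h | h
  · exact ⟨x, orderOf_two_of_mul_self h hxne, hxc', hzc⟩
  · exact absurd (h ▸ (Commute.refl x).mul_right (Commute.refl x) : Commute x D.z) hxz
  · refine ⟨x * D.z, orderOf_two_of_mul_self ?_ ?_, hxc'.mul_left D.hcz.symm, ?_⟩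
    · calc x * D.z * (x * D.z) = (x * D.z * x⁻¹) * (x * x) * D.z := by group
      _ = D.z * D.c * D.c * D.z := by rw [hzc, h]
      _ = 1 := by rw [mul_assoc D.z, D.cc, mul_one, D.zz]
    · intro e
      exact hxz (by rw [eq_inv_of_mul_eq_one_left e]; exact (Commute.refl D.z).inv_left)
    · calc x * D.z * D.z * (x * D.z)⁻¹ = x * D.z * x⁻¹ := by group
      _ = _ := hzc
  · exfalso
    have : Commute x (D.z * D.c) := h ▸ (Commute.refl x).mul_right (Commute.refl x)
    exact hxz (by simpa [mul_assoc, D.cc] using this.mul_right hxc')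

/-- The involution `a`. -/
noncomputable def a : X := D.exists_a.choose

theorem ha : orderOf D.a = 2 := D.exists_a.choose_spec.1
theorem hac : Commute D.a D.c := D.exists_a.choose_spec.2.1
theorem aza : D.a * D.z * D.a⁻¹ = D.z * D.c := D.exists_a.choose_spec.2.2
theorem aa : D.a * D.a = 1 := mul_self_of_orderOf_two D.ha
theorem a_inv : D.a⁻¹ = D.a := inv_eq_self_of_orderOf_two D.ha
omit [Finite X] in
theorem z_inv : D.z⁻¹ = D.z := inv_eq_self_of_orderOf_two D.hz

theorem az : D.a * D.z = D.z * D.c * D.a := mul_inv_eq_iff_eq_mul.mp D.aza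

theorem az' : D.a * D.z = D.z * D.a * D.c := by rw [D.az, mul_assoc, ← D.hac.eq, ← mul_assoc]

theorem zaz : D.z * D.a * D.z = D.a * D.c := by
  rw [mul_assoc, D.az, ← mul_assoc, ← mul_assoc, D.zz, one_mul, D.hac.eq]

theorem not_az : ¬ Commute D.a D.z := fun h => D.c_ne_one <| by
  have := D.az'
  rw [h.eq] at this
  exact mul_eq_left.mp this.symm

theorem a_ne_c : D.a ≠ D.c := fun e => D.not_az (e ▸ D.hcz)

theorem ac_ne_one : D.a * D.c ≠ 1 := fun e => D.a_ne_c <| by
  calc D.a = D.a * (D.c * D.c) := by rw [D.cc, mul_one]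
  _ = D.c := by rw [← mul_assoc, e, one_mul]

theorem orderOf_ac : orderOf (D.a * D.c) = 2 :=
  orderOf_two_of_mul_self (by
    rw [mul_assoc, ← mul_assoc D.c, ← D.hac.eq, mul_assoc D.a D.c D.c, D.cc, mul_one, D.aa])
    D.ac_ne_one

omit [Finite X] in
theorem orderOf_zc : orderOf (D.z * D.c) = 2 :=
  orderOf_two_of_mul_self (by
    rw [mul_assoc, ← mul_assoc D.c, D.hcz.eq, mul_assoc D.z D.c D.c, D.cc, mul_one, D.zz])
    D.zc_ne_one

theorem za_sq : D.z * D.a * (D.z * D.a) = D.c := by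
  rw [← mul_assoc, D.zaz, mul_assoc, ← D.hac.eq, ← mul_assoc, D.aa, one_mul]

theorem zac_sq : D.z * D.a * D.c * (D.z * D.a * D.c) = D.c := by
  have hcza : Commute D.c (D.z * D.a) := D.hcz.mul_right D.hac.symm
  calc D.z * D.a * D.c * (D.z * D.a * D.c)
      = D.z * D.a * (D.c * (D.z * D.a)) * D.c := by group
  _ = D.z * D.a * (D.z * D.a) * (D.c * D.c) := by rw [hcza.eq]; group
  _ = D.c := by rw [D.za_sq, D.cc, mul_one]

/-- The eight elements of the centraliser of `c`. -/
theorem mem_eight {y : X} (h : Commute y D.c) :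
    y = 1 ∨ y = D.z ∨ y = D.c ∨ y = D.z * D.c ∨
      y = D.a ∨ y = D.z * D.a ∨ y = D.a * D.c ∨ y = D.z * D.a * D.c := by
  by_cases hz : Commute y D.z
  · rcases D.mem_four h hz with e | e | e | e <;> simp [e]
  · have hya : Commute (y * D.a) D.z :=
      commute_of_index_two D.card_inf_z (mem_centralizer_singleton_iff.mpr h.eq)
        (mem_centralizer_singleton_iff.mpr D.hac.eq) hz D.not_az
    have hy : y = y * D.a * D.a := by rw [mul_assoc, D.aa, mul_one]
    rcases D.mem_four (h.mul_left D.hac) hya with e | e | e | e <;> rw [e] at hy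
    · rw [one_mul] at hy; simp [hy]
    · simp [hy]
    · rw [← D.hac.eq] at hy; simp [hy]
    · rw [mul_assoc, ← D.hac.eq, ← mul_assoc] at hy; simp [hy]

/-- The involutions of the centraliser of `c`. -/
theorem involution_eight {y : X} (h : Commute y D.c) (hy : orderOf y = 2) :
    y = D.z ∨ y = D.c ∨ y = D.z * D.c ∨ y = D.a ∨ y = D.a * D.c := by
  have h2 := mul_self_of_orderOf_two hy
  rcases D.mem_eight h with e | e | e | e | e | e | e | e
  · exact absurd e (ne_one_of_orderOf_two hy)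
  · exact Or.inl e
  · exact Or.inr (Or.inl e)
  · exact Or.inr (Or.inr (Or.inl e))
  · exact Or.inr (Or.inr (Or.inr (Or.inl e)))
  · rw [e, D.za_sq] at h2; exact absurd h2 D.c_ne_one
  · exact Or.inr (Or.inr (Or.inr (Or.inr e)))
  · rw [e, D.zac_sq] at h2; exact absurd h2 D.c_ne_one

theorem isConj_z_zc : IsConj D.z (D.z * D.c) := isConj_iff.mpr ⟨D.a, D.aza⟩

theorem isConj_a_ac : IsConj D.a (D.a * D.c) :=
  isConj_iff.mpr ⟨D.z, by rw [D.z_inv, D.zaz]⟩

theorem cardZC : Nat.card (centralizer ({D.z * D.c} : Set X)) = 12 := by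
  rw [card_centralizer_isConj D.isConj_z_zc, D.cardZ]

/-- The centraliser of `a` has order 8: otherwise `c` would be isolated. -/
theorem cardA : Nat.card (centralizer ({D.a} : Set X)) = 8 := by
  classical
  rcases D.hinv D.a D.ha with h12 | h8
  swap
  · exact h8
  exfalso
  have hT : IsPGroup 2 ↥(centralizer ({D.c} : Set X)) :=
    IsPGroup.of_card (n := 3) (by rw [D.cardC]; norm_num)
  obtain ⟨Q, hQ⟩ := hT.exists_le_sylow
  have hcQ : D.c ∈ Q := hQ (mem_centralizer_singleton_iff.mpr rfl)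
  have hQle : (Q : Subgroup X) ≤ centralizer ({D.c} : Set X) := by
    have hbot : Nontrivial ↥(Q : Subgroup X) :=
      ⟨⟨⟨D.c, hcQ⟩, 1, fun e => D.c_ne_one (congrArg Subtype.val e)⟩⟩
    have := Q.isPGroup'.center_nontrivial
    obtain ⟨⟨⟨d, hdQ⟩, hdZ⟩, hd1⟩ := exists_ne (1 : Subgroup.center ↥(Q : Subgroup X))
    have hd1' : d ≠ 1 := fun e => hd1 (Subtype.ext (Subtype.ext e))
    have hcomm : ∀ y ∈ (Q : Subgroup X), Commute y d := fun y hy =>
      congrArg Subtype.val (Subgroup.mem_center_iff.mp hdZ ⟨y, hy⟩)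
    have hdc : Commute d D.c := (hcomm _ hcQ).symm
    have hdT : ∀ y, Commute y D.c → Commute y d := fun y hy =>
      hcomm y (hQ (mem_centralizer_singleton_iff.mpr hy.eq))
    have hza : Commute D.z d := hdT _ D.hcz.symm
    have haa : Commute D.a d := hdT _ D.hac
    have hd : d = D.c := by
      rcases D.mem_four hdc hza.symm with e | e | e | e
      · exact absurd e hd1'
      · exact absurd (e ▸ haa) D.not_az
      · exact e
      · exfalso
        rw [e] at haa
        exact D.not_az (by simpa [mul_assoc, D.cc] using haa.mul_right D.hac)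
    intro y hy
    exact mem_centralizer_singleton_iff.mpr (hd ▸ (hcomm y hy)).eq
  have hiso : ∀ g : X, g * D.c * g⁻¹ ∈ Q → g * D.c * g⁻¹ = D.c := by
    intro g hg
    have hcard : Nat.card (centralizer ({g * D.c * g⁻¹} : Set X)) = 8 := by
      rw [card_centralizer_conj, D.cardC]
    have hac12 : Nat.card (centralizer ({D.a * D.c} : Set X)) = 12 := by
      rw [card_centralizer_isConj D.isConj_a_ac, h12]
    rcases D.involution_eight (y := g * D.c * g⁻¹) (mem_centralizer_singleton_iff.mp (hQle hg))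
        ((orderOf_mul_conj _ _).trans D.hc) with e | e | e | e | e
    · rw [e, D.cardZ] at hcard; omega
    · exact e
    · rw [e, D.cardZC] at hcard; omega
    · rw [e, h12] at hcard; omega
    · rw [e, hac12] at hcard; omega
  obtain ⟨N, hN, hodd, hcomm⟩ := CfsgLib.ZStar.exists_normal_odd_of_no_fusion D.hc Q hiso
  have hc_inv : D.c⁻¹ = D.c := inv_eq_self_of_orderOf_two D.hc
  -- every element is a product of an element of `N` and one centralising `c`
  have hfac : ∀ g : X, ∃ n ∈ N, Commute (n * g) D.c := by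
    intro g
    set y := g * D.c * g⁻¹ with hy
    have hcy : D.c * y ∈ N := by
      have := hcomm g
      rw [hc_inv] at this
      simpa [hy, mul_assoc] using this
    have hyo : orderOf y = 2 := (orderOf_mul_conj _ _).trans D.hc
    have ho : Odd (orderOf (y * D.c)) := by
      have h1 : y * D.c ∈ N := by
        have e : D.c * (D.c * y) * D.c⁻¹ = y * D.c := by rw [hc_inv, ← mul_assoc, D.cc, one_mul]
        exact e ▸ hN.conj_mem _ hcy D.c
      exact hodd.of_dvd_nat (Subgroup.orderOf_dvd_natCard _ h1)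
    obtain ⟨k, hk⟩ := ho
    obtain ⟨d, -, he⟩ := exists_conj_eq_mul_zpow hyo D.hc ((k : ℤ) + 1)
    have hd : ∃ n ∈ N, n * y * n⁻¹ = D.c := by
      refine ⟨(y * D.c) ^ (-((k : ℤ) + 1)), N.zpow_mem (by
        have e : D.c * (D.c * y) * D.c⁻¹ = y * D.c := by rw [hc_inv, ← mul_assoc, D.cc, one_mul]
        exact e ▸ hN.conj_mem _ hcy D.c) _, ?_⟩
      have hk' : (y * D.c) ^ (2 * ((k : ℤ) + 1)) = y * D.c := by
        rw [show 2 * ((k : ℤ) + 1) = ((2 * k + 1 : ℕ) : ℤ) + 1 by push_cast; ring, zpow_add_one,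
          zpow_natCast, ← hk, pow_orderOf_eq_one, one_mul]
      have hinv : y * (y * D.c) ^ ((k : ℤ) + 1) = (y * D.c) ^ (-((k : ℤ) + 1)) * y :=
        mul_zpow_comm hyo D.hc _
      rw [zpow_neg, inv_inv, ← zpow_neg, ← hinv, mul_assoc, ← zpow_add, ← two_mul, hk',
        left_mul_mul_self hyo]
    obtain ⟨n, hn, he⟩ := hd
    refine ⟨n, hn, ?_⟩
    have : n * g * D.c * (n * g)⁻¹ = D.c := by
      calc n * g * D.c * (n * g)⁻¹ = n * (g * D.c * g⁻¹) * n⁻¹ := by group
      _ = D.c := he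
    exact mul_inv_eq_iff_eq_mul.mp this
  -- `p ∈ N`
  have hpN : D.p ∈ N := by
    have := hN
    let f : ↥(centralizer ({D.c} : Set X)) →* X ⧸ N :=
      (QuotientGroup.mk' N).comp (centralizer ({D.c} : Set X)).subtype
    have hf : Function.Surjective f := by
      intro q
      induction q using QuotientGroup.induction_on with
      | H g =>
        obtain ⟨n, hn, hng⟩ := hfac g
        refine ⟨⟨n * g, mem_centralizer_singleton_iff.mpr hng.eq⟩, ?_⟩
        simp [f, (QuotientGroup.eq_one_iff n).mpr hn]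
    have h1 : Nat.card (X ⧸ N) ∣ 8 := D.cardC ▸ Subgroup.card_dvd_of_surjective f hf
    have h2 : orderOf (QuotientGroup.mk' N D.p) ∣ Nat.gcd 3 8 :=
      Nat.dvd_gcd (D.hp ▸ orderOf_map_dvd _ _) ((_root_.orderOf_dvd_natCard _).trans h1)
    norm_num at h2
    exact h2
  -- `c` inverts `N`
  have hCN : ∀ n ∈ N, Commute n D.c → n = 1 := by
    intro n hn hnc
    rw [← orderOf_eq_one_iff]
    have h1 : orderOf n ∣ 8 :=
      D.cardC ▸ Subgroup.orderOf_dvd_natCard _ (mem_centralizer_singleton_iff.mpr hnc.eq)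
    have h2 : Odd (orderOf n) := hodd.of_dvd_nat (Subgroup.orderOf_dvd_natCard _ hn)
    have h3 := Nat.le_of_dvd (by norm_num) h1
    interval_cases orderOf n <;> simp_all +decide
  have hinvN : ∀ m ∈ N, D.c * m * D.c = m⁻¹ := by
    let φ : N → N := fun n => ⟨(n : X)⁻¹ * (D.c * (n : X) * D.c),
      N.mul_mem (N.inv_mem n.2) (by simpa [hc_inv] using hN.conj_mem _ n.2 D.c)⟩
    have hφ : Function.Injective φ := by
      intro u v huv
      have huv' : (u : X)⁻¹ * (D.c * u * D.c) = (v : X)⁻¹ * (D.c * v * D.c) :=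
        congrArg Subtype.val huv
      have : Commute ((v : X) * (u : X)⁻¹) D.c := by
        show (v : X) * (u : X)⁻¹ * D.c = D.c * ((v : X) * (u : X)⁻¹)
        calc (v : X) * (u : X)⁻¹ * D.c
            = (v : X) * (u : X)⁻¹ * D.c * (u : X) * (D.c * D.c) * (u : X)⁻¹ := by
              rw [D.cc]; group
        _ = (v : X) * ((u : X)⁻¹ * (D.c * u * D.c)) * (D.c * (u : X)⁻¹) := by group
        _ = (v : X) * ((v : X)⁻¹ * (D.c * v * D.c)) * (D.c * (u : X)⁻¹) := by rw [huv']
        _ = D.c * v * (D.c * D.c) * (u : X)⁻¹ := by group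
        _ = D.c * ((v : X) * (u : X)⁻¹) := by rw [D.cc]; group
      have h1 := hCN _ (N.mul_mem v.2 (N.inv_mem u.2)) this
      exact Subtype.ext (mul_inv_eq_one.mp h1).symm
    intro m hm
    obtain ⟨n, hn⟩ := (Finite.injective_iff_surjective.mp hφ) ⟨m, hm⟩
    have hn' : (n : X)⁻¹ * (D.c * n * D.c) = m := congrArg Subtype.val hn
    rw [← hn']
    simp only [mul_inv_rev, inv_inv, hc_inv, mul_assoc]
    rw [D.cc, mul_one]
  have hab : ∀ m ∈ N, ∀ m' ∈ N, Commute m m' := by
    intro m hm m' hm'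
    have h1 := hinvN _ (N.mul_mem hm hm')
    have h2 : D.c * (m * m') * D.c = m⁻¹ * m'⁻¹ := by
      rw [← hinvN m hm, ← hinvN m' hm']
      simp only [mul_assoc]
      rw [← mul_assoc D.c D.c, D.cc, one_mul]
    rw [h1, mul_inv_rev] at h2
    have := congrArg Inv.inv h2
    simp only [mul_inv_rev, inv_inv] at this
    exact this
  have hNle : N ≤ centralizer ({D.p} : Set X) := fun m hm =>
    mem_centralizer_singleton_iff.mpr (hab m hm _ hpN).eq
  have hNeq : ∀ m ∈ N, m = 1 ∨ m = D.p ∨ m = D.p⁻¹ := by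
    have h6 : Nat.card N ∣ 6 := D.cardP ▸ card_dvd_of_le hNle
    have h3 : Nat.card N ∣ 3 :=
      (Nat.Coprime.dvd_of_dvd_mul_left (m := 2) (Nat.coprime_two_right.mpr hodd) (by simpa using h6))
    have hle : Subgroup.zpowers D.p = N := by
      refine Subgroup.eq_of_le_of_card_ge (zpowers_le.mpr hpN) ?_
      rw [Nat.card_zpowers, D.hp]
      exact Nat.le_of_dvd (by norm_num) h3
    intro m hm
    rw [← hle] at hm
    obtain ⟨i, rfl⟩ := mem_zpowers_iff.mp hm
    have : i % 3 = 0 ∨ i % 3 = 1 ∨ i % 3 = 2 := by omega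
    rw [← zpow_mod_orderOf, D.hp]
    push_cast
    rcases this with e | e | e <;> rw [e]
    · exact Or.inl (zpow_zero _)
    · exact Or.inr (Or.inl (zpow_one _))
    · right; right
      rw [eq_inv_iff_mul_eq_one, ← zpow_add_one, show (2 : ℤ) + 1 = ((3 : ℕ) : ℤ) by norm_num,
        zpow_natCast, ← D.hp, pow_orderOf_eq_one]
  have hcp : D.c * D.p * D.c⁻¹ = D.p⁻¹ := by rw [hc_inv]; exact hinvN _ hpN
  have hp_ne : D.p⁻¹ ≠ D.p := fun e => by
    have : D.p ^ 2 = 1 := by rw [pow_two]; exact mul_eq_one_iff_eq_inv.mpr e.symm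
    have := orderOf_dvd_of_pow_eq_one this
    rw [D.hp] at this
    norm_num at this
  -- `a` and `ac`: one of them centralises `p`, so `c = (az)^2` does
  have key : ∀ b : X, Commute b D.p → (b * D.z) * (b * D.z) = D.c → False := by
    intro b hb hsq
    have h := (hb.mul_left D.hpz.symm).mul_left (hb.mul_left D.hpz.symm)
    rw [hsq] at h
    rw [mul_inv_eq_iff_eq_mul.mpr h.eq] at hcp
    exact hp_ne hcp.symm
  have haz : D.a * D.z * (D.a * D.z) = D.c := by
    calc D.a * D.z * (D.a * D.z) = D.a * (D.z * D.a * D.z) := by group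
    _ = D.a * (D.a * D.c) := by rw [D.zaz]
    _ = D.c := by rw [← mul_assoc, D.aa, one_mul]
  rcases hNeq _ (hN.conj_mem _ hpN D.a) with e | e | e
  · rw [conj_eq_one_iff] at e
    have := D.hp
    rw [e, orderOf_one] at this
    omega
  · exact key D.a (mul_inv_eq_iff_eq_mul.mp e) haz
  · refine key (D.a * D.c) (mul_inv_eq_iff_eq_mul.mp ?_) ?_
    · calc D.a * D.c * D.p * (D.a * D.c)⁻¹ = D.a * (D.c * D.p * D.c⁻¹) * D.a⁻¹ := by group
      _ = (D.a * D.p * D.a⁻¹)⁻¹ := by rw [hcp]; group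
      _ = D.p := by rw [e, inv_inv]
    · have hcaz : Commute D.c (D.a * D.z) := D.hac.symm.mul_right D.hcz
      calc D.a * D.c * D.z * (D.a * D.c * D.z)
          = D.a * (D.c * D.z) * (D.a * (D.c * D.z)) := by group
      _ = D.a * (D.z * D.c) * (D.a * (D.z * D.c)) := by rw [D.hcz.eq]
      _ = D.a * D.z * (D.c * (D.a * D.z)) * D.c := by group
      _ = D.a * D.z * (D.a * D.z) * (D.c * D.c) := by rw [hcaz.eq]; group
      _ = D.c := by rw [haz, D.cc, mul_one]

theorem card_inf_a : 2 * Nat.card ↥(C[D.a] ⊓ C[D.c]) = Nat.card (centralizer ({D.a} : Set X)) := by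
  classical
  have hd : Nat.card ↥(C[D.a] ⊓ C[D.c]) ∣ 8 := D.cardA ▸ card_dvd_of_le inf_le_left
  have hge : 3 ≤ Nat.card ↥(C[D.a] ⊓ C[D.c]) := by
    have hsub : ({1, D.a, D.c} : Set X) ⊆ ((C[D.a] ⊓ C[D.c] : Subgroup X) : Set X) := by
      rintro w (rfl | rfl | rfl)
      · exact Subgroup.one_mem _
      · exact ⟨mem_centralizer_singleton_iff.mpr rfl, mem_centralizer_singleton_iff.mpr D.hac.eq⟩
      · exact ⟨mem_centralizer_singleton_iff.mpr D.hac.symm.eq, mem_centralizer_singleton_iff.mpr rfl⟩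
    have h3 : ({1, D.a, D.c} : Set X).ncard = 3 := by
      rw [Set.ncard_insert_of_notMem
          (by simp [(ne_one_of_orderOf_two D.ha).symm, D.c_ne_one.symm]),
        Set.ncard_pair D.a_ne_c]
    have := Set.ncard_le_ncard hsub
    rw [h3, ← Nat.card_coe_set_eq] at this
    exact this
  have hlt : Nat.card ↥(C[D.a] ⊓ C[D.c]) ≠ 8 := by
    intro h
    have hle : C[D.a] ⊓ C[D.c] = centralizer ({D.c} : Set X) :=
      Subgroup.eq_of_le_of_card_ge inf_le_right (by rw [h, D.cardC])
    have hz : D.z ∈ C[D.a] ⊓ C[D.c] := by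
      rw [hle]; exact mem_centralizer_singleton_iff.mpr D.hcz.symm.eq
    exact D.not_az (Commute.symm (mem_centralizer_singleton_iff.mp hz.1))
  rw [D.cardA]
  have := Nat.le_of_dvd (by norm_num) hd
  interval_cases (Nat.card ↥(C[D.a] ⊓ C[D.c])) <;> simp_all +decide

/-- The elements commuting with both `a` and `c`. -/
theorem mem_F1 {y : X} (hya : Commute y D.a) (hyc : Commute y D.c) :
    y = 1 ∨ y = D.c ∨ y = D.a ∨ y = D.a * D.c := by
  rcases D.mem_eight hyc with e | e | e | e | e | e | e | e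
  · exact Or.inl e
  · exact absurd (e ▸ hya).symm D.not_az
  · exact Or.inr (Or.inl e)
  · exfalso
    rw [e] at hya
    exact D.not_az (by simpa [mul_assoc, D.cc] using (hya.mul_left D.hac.symm).symm)
  · exact Or.inr (Or.inr (Or.inl e))
  · exfalso
    rw [e] at hya
    exact D.not_az (by simpa [mul_assoc, D.aa] using (hya.mul_left (Commute.refl D.a)).symm)
  · exact Or.inr (Or.inr (Or.inr e))
  · exfalso
    rw [e] at hya
    have := (hya.mul_left D.hac.symm).mul_left (Commute.refl D.a)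
    exact D.not_az (by simpa [mul_assoc, D.cc, D.aa] using this.symm)

/-- An element fixing `a` and moving `c` to `ac`. -/
theorem exists_y : ∃ y : X, Commute y D.a ∧ y * D.c * y⁻¹ = D.a * D.c := by
  obtain ⟨y, hya, hyc⟩ : ∃ y, y ∈ centralizer ({D.a} : Set X) ∧ ¬ Commute y D.c := by
    by_contra hne
    push Not at hne
    have hle : centralizer ({D.a} : Set X) ≤ centralizer ({D.c} : Set X) :=
      fun y hy => mem_centralizer_singleton_iff.mpr (hne y hy).eq
    have h := D.card_inf_a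
    rw [inf_eq_left.mpr hle, D.cardA] at h
    omega
  have hya' : Commute y D.a := mem_centralizer_singleton_iff.mp hya
  have hcT : D.c ∈ centralizer ({D.a} : Set X) :=
    mem_centralizer_singleton_iff.mpr D.hac.symm.eq
  have hyi : ¬ Commute y⁻¹ D.c := fun h => hyc (by simpa using h.inv_left)
  have hycc : ¬ Commute (y * D.c) D.c := fun h =>
    hyc (by simpa using h.mul_left (Commute.refl D.c).inv_left)
  have hconj : Commute (y * D.c * y⁻¹) D.c :=
    commute_of_index_two D.card_inf_a (mul_mem hya hcT) (inv_mem hya) hycc hyi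
  refine ⟨y, hya', ?_⟩
  rcases D.mem_F1 ((hya'.mul_left D.hac.symm).mul_left hya'.inv_left) hconj with e | e | e | e
  · exact absurd (conj_eq_one_iff.mp e) D.c_ne_one
  · exact absurd (mul_inv_eq_iff_eq_mul.mp e) hyc
  · exfalso
    have e' : y * D.c = y * D.a := by rw [mul_inv_eq_iff_eq_mul.mp e, hya'.symm.eq]
    exact D.a_ne_c (mul_left_cancel e').symm
  · exact e

theorem isConj_c_ac : IsConj D.c (D.a * D.c) :=
  let ⟨y, _, hy⟩ := D.exists_y
  isConj_iff.mpr ⟨y, hy⟩

theorem isConj_c_a : IsConj D.c D.a := D.isConj_c_ac.trans D.isConj_a_ac.symm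

theorem not_isConj : ¬ IsConj D.z D.c := fun h => by
  have := card_centralizer_isConj h
  rw [D.cardC, D.cardZ] at this
  omega

/-- Exactly two classes of involutions. -/
theorem classes {x : X} (hx : orderOf x = 2) : IsConj D.z x ∨ IsConj D.c x := by
  classical
  obtain ⟨Q, hQ⟩ :=
    (IsPGroup.of_card (n := 3) (G := ↥(centralizer ({D.c} : Set X)))
      (by rw [D.cardC]; norm_num)).exists_le_sylow (p := 2)
  obtain ⟨R, hR⟩ := (IsPGroup.of_card (n := 1) (G := ↥(Subgroup.zpowers x))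
    (by rw [Nat.card_zpowers, hx]; norm_num)).exists_le_sylow (p := 2)
  have hQeq : (Q : Subgroup X) = centralizer ({D.c} : Set X) := by
    refine le_antisymm ?_ hQ
    by_contra hlt
    -- a `2`-group properly containing the centraliser of `c` moves `c` inside its centre
    have hlt' : centralizer ({D.c} : Set X) < (Q : Subgroup X) :=
      lt_of_le_not_ge hQ hlt
    have hnt : Nontrivial ↥(Q : Subgroup X) :=
      ⟨⟨⟨D.c, hQ (mem_centralizer_singleton_iff.mpr rfl)⟩, 1,
        fun e => D.c_ne_one (congrArg Subtype.val e)⟩⟩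
    have := Q.isPGroup'.center_nontrivial
    obtain ⟨⟨⟨d, hdQ⟩, hdZ⟩, hd1⟩ := exists_ne (1 : Subgroup.center ↥(Q : Subgroup X))
    have hd1' : d ≠ 1 := fun e => hd1 (Subtype.ext (Subtype.ext e))
    have hcomm : ∀ y ∈ (Q : Subgroup X), Commute y d := fun y hy =>
      congrArg Subtype.val (Subgroup.mem_center_iff.mp hdZ ⟨y, hy⟩)
    have hmem : ∀ y, Commute y D.c → Commute y d := fun y hy =>
      hcomm y (hQ (mem_centralizer_singleton_iff.mpr hy.eq))
    rcases D.mem_four (hmem _ (Commute.refl D.c)).symm (hmem _ D.hcz.symm).symm with e | e | e | e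
    · exact hd1' e
    · exact D.not_az (e ▸ hmem _ D.hac)
    · subst e
      exact hlt fun y hy => mem_centralizer_singleton_iff.mpr (hcomm y hy).eq
    · have h := hmem _ D.hac
      rw [e] at h
      have h2 := h.mul_right D.hac
      rw [mul_assoc, D.cc, mul_one] at h2
      exact D.not_az h2
  obtain ⟨g, hg⟩ := MulAction.exists_smul_eq X R Q
  have hxQ : g * x * g⁻¹ ∈ centralizer ({D.c} : Set X) := by
    rw [← hQeq, ← hg]
    simp only [Sylow.coe_subgroup_smul, Subgroup.mem_smul_pointwise_iff_exists]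
    exact ⟨x, hR (Subgroup.mem_zpowers x), rfl⟩
  have hxg : IsConj x (g * x * g⁻¹) := isConj_iff.mpr ⟨g, rfl⟩
  rcases D.involution_eight (mem_centralizer_singleton_iff.mp hxQ)
      ((orderOf_mul_conj _ _).trans hx) with e | e | e | e | e <;> rw [e] at hxg
  · exact Or.inl hxg.symm
  · exact Or.inr hxg.symm
  · exact Or.inl (D.isConj_z_zc.trans hxg.symm)
  · exact Or.inr (D.isConj_c_a.trans hxg.symm)
  · exact Or.inr (D.isConj_c_ac.trans hxg.symm)

theorem isConj_z_of_card {x : X} (hx : orderOf x = 2)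
    (h : Nat.card (centralizer ({x} : Set X)) = 12) : IsConj D.z x := by
  rcases D.classes hx with h' | h'
  · exact h'
  · rw [card_centralizer_isConj h', D.cardC] at h
    omega

omit [Finite X] in
/-- An involution in `⟨uv⟩` commutes with both involutions `u` and `v`. -/
theorem commute_of_mem_zpowers {u v x : X} (hu : orderOf u = 2) (hv : orderOf v = 2)
    (hx : orderOf x = 2) (h : x ∈ Subgroup.zpowers (u * v)) : Commute u x ∧ Commute v x := by
  obtain ⟨i, rfl⟩ := mem_zpowers_iff.mp h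
  have h1 : Commute u ((u * v) ^ i) := by
    have := mul_zpow_comm hu hv i
    rwa [zpow_neg, inv_eq_self_of_orderOf_two hx] at this
  refine ⟨h1, ?_⟩
  have h2 := h1.mul_left ((Commute.refl (u * v)).zpow_right i)
  rwa [← mul_assoc, mul_self_of_orderOf_two hu, one_mul] at h2

theorem card_pairs_c :
    Nat.card {q : X × X // IsConj D.z q.1 ∧ IsConj D.c q.2 ∧ D.c ∈ Subgroup.zpowers (q.1 * q.2)}
      = 4 := by
  classical
  have hset : {q : X × X | IsConj D.z q.1 ∧ IsConj D.c q.2 ∧ D.c ∈ Subgroup.zpowers (q.1 * q.2)}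
      = ({D.z, D.z * D.c} : Set X) ×ˢ ({D.a, D.a * D.c} : Set X) := by
    ext ⟨u, v⟩
    simp only [Set.mem_setOf_eq, Set.mem_prod, Set.mem_insert_iff, Set.mem_singleton_iff]
    constructor
    · rintro ⟨hu, hv, hm⟩
      have hu2 : orderOf u = 2 := by
        obtain ⟨g, rfl⟩ := isConj_iff.mp hu; rw [orderOf_mul_conj, D.hz]
      have hv2 : orderOf v = 2 := by
        obtain ⟨g, rfl⟩ := isConj_iff.mp hv; rw [orderOf_mul_conj, D.hc]
      obtain ⟨huc, hvc⟩ := commute_of_mem_zpowers hu2 hv2 D.hc hm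
      have hu' : u = D.z ∨ u = D.z * D.c := by
        rcases D.involution_eight huc hu2 with e | e | e | e | e
        · exact Or.inl e
        · exact absurd (e ▸ hu) D.not_isConj
        · exact Or.inr e
        · exact absurd ((e ▸ hu).trans D.isConj_c_a.symm) D.not_isConj
        · exact absurd ((e ▸ hu).trans D.isConj_c_ac.symm) D.not_isConj
      refine ⟨hu', ?_⟩
      rcases D.involution_eight hvc hv2 with e | e | e | e | e
      · exact absurd (e ▸ hv).symm D.not_isConj
      · exfalso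
        subst e
        rcases hu' with rfl | rfl
        · have := BaerSuzuki.involution_unique_in_zpowers D.hc D.orderOf_zc hm (mem_zpowers _)
          exact D.z_ne_one (mul_eq_right.mp this.symm)
        · rw [mul_assoc, D.cc, mul_one] at hm
          exact D.z_ne_c (BaerSuzuki.involution_unique_in_zpowers D.hz D.hc (mem_zpowers _) hm)
      · exact absurd (D.isConj_z_zc.trans (e ▸ hv).symm) D.not_isConj
      · exact Or.inl e
      · exact Or.inr e
    · rintro ⟨hu, hv⟩
      refine ⟨?_, ?_, ?_⟩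
      · rcases hu with rfl | rfl
        · exact IsConj.refl _
        · exact D.isConj_z_zc
      · rcases hv with rfl | rfl
        · exact D.isConj_c_a
        · exact D.isConj_c_ac
      · have e2 : D.z * D.c * D.a = D.z * D.a * D.c := by rw [mul_assoc, ← D.hac.eq, ← mul_assoc]
        have e3 : D.z * D.c * (D.a * D.c) = D.z * D.a := by
          rw [← mul_assoc, e2, mul_assoc, D.cc, mul_one]
        rcases hu with rfl | rfl <;> rcases hv with rfl | rfl
        · exact mem_zpowers_iff.mpr ⟨2, by rw [zpow_two, D.za_sq]⟩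
        · exact mem_zpowers_iff.mpr ⟨2, by rw [zpow_two, ← mul_assoc D.z D.a D.c, D.zac_sq]⟩
        · exact mem_zpowers_iff.mpr ⟨2, by rw [zpow_two, e2, D.zac_sq]⟩
        · exact mem_zpowers_iff.mpr ⟨2, by rw [zpow_two, e3, D.za_sq]⟩
  change Nat.card ({q : X × X | IsConj D.z q.1 ∧ IsConj D.c q.2 ∧
    D.c ∈ Subgroup.zpowers (q.1 * q.2)} : Set (X × X)) = 4
  rw [hset, Nat.card_coe_set_eq, Set.ncard_prod,
    Set.ncard_pair (fun e => D.c_ne_one (mul_eq_left.mp e.symm)),
    Set.ncard_pair (fun e => D.c_ne_one (mul_eq_left.mp e.symm))]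

theorem not_cp : ¬ Commute D.c D.p := fun h => by
  have := D.cardC ▸ Subgroup.orderOf_dvd_natCard _
    (mem_centralizer_singleton_iff.mpr h.symm.eq : D.p ∈ centralizer ({D.c} : Set X))
  rw [D.hp] at this
  norm_num at this

theorem mem_CP {x : X} (hx : Commute x D.p) : x ∈ Subgroup.zpowers (D.p * D.z) := by
  have ho : orderOf (D.p * D.z) = 6 := by
    rw [D.hpz.orderOf_mul_eq_mul_orderOf_of_coprime (by rw [D.hp, D.hz]; norm_num), D.hp, D.hz]
  have heq : Subgroup.zpowers (D.p * D.z) = centralizer ({D.p} : Set X) := by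
    refine Subgroup.eq_of_le_of_card_ge (zpowers_le.mpr (mem_centralizer_singleton_iff.mpr ?_)) ?_
    · exact ((Commute.refl D.p).mul_left D.hpz.symm).eq
    · rw [Nat.card_zpowers, ho, D.cardP]
  rw [heq]
  exact mem_centralizer_singleton_iff.mpr hx.eq

theorem CP_le : centralizer ({D.p} : Set X) ≤ centralizer ({D.z} : Set X) := fun x hx => by
  obtain ⟨i, rfl⟩ := mem_zpowers_iff.mp (D.mem_CP (mem_centralizer_singleton_iff.mp hx))
  exact mem_centralizer_singleton_iff.mpr ((D.hpz.mul_left (Commute.refl D.z)).zpow_left i).eq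

theorem card_inf_p : 2 * Nat.card ↥(C[D.z] ⊓ C[D.p]) = Nat.card (centralizer ({D.z} : Set X)) := by
  rw [inf_eq_right.mpr D.CP_le, D.cardP, D.cardZ]

theorem cpc : D.c * D.p * D.c = D.p⁻¹ := by
  have hcc' : D.c⁻¹ = D.c := inv_eq_self_of_orderOf_two D.hc
  have hcZ : D.c ∈ centralizer ({D.z} : Set X) := mem_centralizer_singleton_iff.mpr D.hcz.eq
  have hpZ : D.p ∈ centralizer ({D.z} : Set X) := mem_centralizer_singleton_iff.mpr D.hpz.eq
  have h1 : ¬ Commute (D.c * D.p) D.p := fun h =>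
    D.not_cp (by simpa using h.mul_left (Commute.refl D.p).inv_left)
  have hcomm : Commute (D.c * D.p * D.c) D.p :=
    commute_of_index_two D.card_inf_p (mul_mem hcZ hpZ) hcZ h1 D.not_cp
  obtain ⟨i, hi⟩ := mem_zpowers_iff.mp (D.mem_CP hcomm)
  have ho : orderOf (D.c * D.p * D.c) = 3 := by
    nth_rewrite 2 [← hcc']
    rw [orderOf_mul_conj, D.hp]
  have hz1 : D.z ^ i = 1 := by
    have h3 : (D.c * D.p * D.c) ^ 3 = 1 := ho ▸ pow_orderOf_eq_one _
    rw [← hi, D.hpz.mul_zpow, ((D.hpz.zpow_left i).zpow_right i).mul_pow] at h3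
    have hp3 : (D.p ^ i) ^ 3 = 1 := by
      rw [← zpow_natCast, ← zpow_mul, mul_comm, zpow_mul, zpow_natCast, ← D.hp, pow_orderOf_eq_one,
        one_zpow]
    rw [hp3, one_mul] at h3
    rcases Int.even_or_odd i with ⟨m, rfl⟩ | ⟨m, rfl⟩
    · rw [← two_mul, zpow_mul, zpow_two, D.zz, one_zpow]
    · exfalso
      rw [zpow_add_one, zpow_mul, zpow_two, D.zz, one_zpow, one_mul] at h3
      have := orderOf_dvd_of_pow_eq_one h3
      rw [D.hz] at this
      norm_num at this
  rw [D.hpz.mul_zpow, hz1, mul_one] at hi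
  rw [← hi]
  have : i % 3 = 0 ∨ i % 3 = 1 ∨ i % 3 = 2 := by omega
  rw [← zpow_mod_orderOf D.p i, D.hp] at hi ⊢
  push_cast at hi ⊢
  rcases this with e | e | e <;> rw [e] at hi ⊢
  · rw [zpow_zero] at hi
    rw [← hi, orderOf_one] at ho
    omega
  · exfalso
    rw [zpow_one] at hi
    refine D.not_cp ?_
    have := congrArg (fun w => D.c * w) hi
    simp only [← mul_assoc, D.cc, one_mul] at this
    exact this
  · rw [eq_inv_iff_mul_eq_one, ← zpow_add_one, show (2 : ℤ) + 1 = ((3 : ℕ) : ℤ) by norm_num,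
      zpow_natCast, ← D.hp, pow_orderOf_eq_one]

theorem c_zpow (i : ℤ) : D.c * D.p ^ i * D.c = D.p ^ (-i) := by
  have hcc' : D.c⁻¹ = D.c := inv_eq_self_of_orderOf_two D.hc
  calc D.c * D.p ^ i * D.c = D.c * D.p ^ i * D.c⁻¹ := by rw [hcc']
  _ = (D.c * D.p * D.c⁻¹) ^ i := by rw [conj_zpow]
  _ = D.p ^ (-i) := by rw [hcc', D.cpc, inv_zpow']

theorem isConj_cp (i : ℕ) : IsConj D.c (D.c * D.p ^ i) := by
  refine isConj_iff.mpr ⟨D.p ^ (i : ℤ), ?_⟩
  have h := D.c_zpow (i : ℤ)
  have e1 : D.c * D.p ^ (-(i : ℤ)) = D.p ^ (i : ℤ) * D.c := by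
    rw [← h, ← mul_assoc, ← mul_assoc, D.cc, one_mul]
  have e3 : D.p ^ ((-2) * (i : ℤ)) = D.p ^ (i : ℤ) := by
    rw [← zpow_mod_orderOf D.p ((-2) * (i : ℤ)), ← zpow_mod_orderOf D.p (i : ℤ), D.hp]
    congr 1
    omega
  calc D.p ^ (i : ℤ) * D.c * (D.p ^ (i : ℤ))⁻¹ = D.c * D.p ^ (-(i : ℤ)) * D.p ^ (-(i : ℤ)) := by
        rw [e1, zpow_neg]
  _ = D.c * D.p ^ ((-2) * (i : ℤ)) := by rw [mul_assoc, ← zpow_add]; congr 2; ring
  _ = D.c * D.p ^ i := by rw [e3, zpow_natCast]

theorem isConj_czp (i : ℕ) : IsConj D.z (D.c * D.z * D.p ^ i) := by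
  obtain ⟨g, hg⟩ := isConj_iff.mp (D.isConj_cp i)
  refine D.isConj_z_zc.trans (isConj_iff.mpr ⟨D.p ^ (i : ℤ), ?_⟩)
  obtain hpz : Commute (D.p ^ (i : ℤ)) D.z := D.hpz.zpow_left _
  have h := D.c_zpow (i : ℤ)
  have e1 : D.c * D.p ^ (-(i : ℤ)) = D.p ^ (i : ℤ) * D.c := by
    rw [← h, ← mul_assoc, ← mul_assoc, D.cc, one_mul]
  have e3 : D.p ^ ((-2) * (i : ℤ)) = D.p ^ (i : ℤ) := by
    rw [← zpow_mod_orderOf D.p ((-2) * (i : ℤ)), ← zpow_mod_orderOf D.p (i : ℤ), D.hp]
    congr 1
    omega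
  calc D.p ^ (i : ℤ) * (D.z * D.c) * (D.p ^ (i : ℤ))⁻¹
      = D.z * (D.p ^ (i : ℤ) * D.c) * (D.p ^ (i : ℤ))⁻¹ := by
        rw [← mul_assoc, hpz.eq, mul_assoc D.z]
  _ = D.z * (D.c * D.p ^ ((-2) * (i : ℤ))) := by
        rw [← e1, ← zpow_neg, mul_assoc, mul_assoc, ← zpow_add]; congr 3; ring
  _ = D.c * D.z * D.p ^ i := by rw [e3, zpow_natCast, ← mul_assoc, D.hcz.eq]

/-- The elements of the centraliser of `z`. -/
theorem mem_twelve {x : X} (hx : Commute x D.z) :
    ∃ i < 3, x = D.p ^ i ∨ x = D.z * D.p ^ i ∨ x = D.c * D.p ^ i ∨ x = D.c * D.z * D.p ^ i := by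
  have key : ∀ w, Commute w D.p → ∃ i < 3, w = D.p ^ i ∨ w = D.z * D.p ^ i := by
    intro w hw
    obtain ⟨k, rfl⟩ := mem_zpowers_iff.mp (D.mem_CP hw)
    refine ⟨(k % 3).toNat, by omega, ?_⟩
    have hp : D.p ^ (k % 3).toNat = D.p ^ k := by
      rw [← zpow_mod_orderOf D.p k, D.hp, ← zpow_natCast]
      congr 1
      omega
    rw [D.hpz.mul_zpow, hp]
    rcases Int.even_or_odd k with ⟨m, rfl⟩ | ⟨m, rfl⟩
    · left
      rw [← two_mul, zpow_mul D.z, zpow_two D.z, D.zz, one_zpow, mul_one]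
    · right
      rw [zpow_add_one D.z, zpow_mul D.z, zpow_two D.z, D.zz, one_zpow, one_mul,
        (D.hpz.zpow_left (2 * m + 1)).eq]
  by_cases hp : Commute x D.p
  · obtain ⟨i, hi, e | e⟩ := key x hp
    · exact ⟨i, hi, Or.inl e⟩
    · exact ⟨i, hi, Or.inr (Or.inl e)⟩
  · have hc : Commute (D.c * x) D.p := commute_of_index_two D.card_inf_p
      (mem_centralizer_singleton_iff.mpr D.hcz.eq) (mem_centralizer_singleton_iff.mpr hx.eq)
      D.not_cp hp
    have hxe : x = D.c * (D.c * x) := by rw [← mul_assoc, D.cc, one_mul]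
    obtain ⟨i, hi, e | e⟩ := key _ hc <;> rw [e] at hxe
    · exact ⟨i, hi, Or.inr (Or.inr (Or.inl hxe))⟩
    · exact ⟨i, hi, Or.inr (Or.inr (Or.inr (by rw [hxe, mul_assoc])))⟩

theorem involution_twelve {x : X} (hx : Commute x D.z) (h2 : orderOf x = 2) :
    x = D.z ∨ ∃ i < 3, x = D.c * D.p ^ i ∨ x = D.c * D.z * D.p ^ i := by
  obtain ⟨i, hi, e | e | e | e⟩ := D.mem_twelve hx
  · exfalso
    have h1 : orderOf x ∣ 3 := D.hp ▸ e ▸ orderOf_pow_dvd i
    rw [h2] at h1
    norm_num at h1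
  · left
    have hsq : x * x = 1 := mul_self_of_orderOf_two h2
    rw [e, (D.hpz.pow_left i).mul_mul_mul_comm, D.zz, one_mul, ← pow_add] at hsq
    have h3 := orderOf_dvd_of_pow_eq_one hsq
    rw [D.hp] at h3
    interval_cases i
    · simpa using e
    all_goals omega
  · exact Or.inr ⟨i, hi, Or.inl e⟩
  · exact Or.inr ⟨i, hi, Or.inr e⟩

theorem card_pairs_z :
    Nat.card {q : X × X // IsConj D.z q.1 ∧ IsConj D.c q.2 ∧ D.z ∈ Subgroup.zpowers (q.1 * q.2)}
      = 9 := by
  classical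
  have hset : {q : X × X | IsConj D.z q.1 ∧ IsConj D.c q.2 ∧ D.z ∈ Subgroup.zpowers (q.1 * q.2)}
      = ((fun i : ℕ => D.c * D.z * D.p ^ i) '' Set.Iio 3) ×ˢ
        ((fun i : ℕ => D.c * D.p ^ i) '' Set.Iio 3) := by
    ext ⟨u, v⟩
    simp only [Set.mem_setOf_eq, Set.mem_prod, Set.mem_image, Set.mem_Iio]
    constructor
    · rintro ⟨hu, hv, hm⟩
      have hu2 : orderOf u = 2 := by
        obtain ⟨g, rfl⟩ := isConj_iff.mp hu; rw [orderOf_mul_conj, D.hz]
      have hv2 : orderOf v = 2 := by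
        obtain ⟨g, rfl⟩ := isConj_iff.mp hv; rw [orderOf_mul_conj, D.hc]
      obtain ⟨huz, hvz⟩ := commute_of_mem_zpowers hu2 hv2 D.hz hm
      obtain ⟨j, hj, hvj⟩ : ∃ j < 3, v = D.c * D.p ^ j := by
        rcases D.involution_twelve hvz hv2 with e | ⟨j, hj, e | e⟩
        · exact absurd (e ▸ hv).symm D.not_isConj
        · exact ⟨j, hj, e⟩
        · exact absurd ((D.isConj_czp j).trans (e ▸ hv).symm) D.not_isConj
      refine ⟨?_, j, hj, hvj.symm⟩
      rcases D.involution_twelve huz hu2 with e | ⟨i, hi, e | e⟩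
      · exfalso
        subst e hvj
        have h2 : orderOf (D.z * (D.c * D.p ^ j)) = 2 := by
          refine orderOf_two_of_mul_self ?_ ?_
          · rw [hvz.mul_mul_mul_comm, D.zz, one_mul, mul_self_of_orderOf_two hv2]
          · intro h1
            rw [eq_inv_of_mul_eq_one_right h1, D.z_inv] at hv
            exact D.not_isConj hv.symm
        have := BaerSuzuki.involution_unique_in_zpowers D.hz h2 hm (mem_zpowers _)
        exact ne_one_of_orderOf_two hv2 (mul_eq_left.mp this.symm)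
      · exact absurd ((e ▸ hu).trans (D.isConj_cp i).symm) D.not_isConj
      · exact ⟨i, hi, e.symm⟩
    · rintro ⟨⟨i, -, rfl⟩, ⟨j, -, rfl⟩⟩
      refine ⟨D.isConj_czp i, D.isConj_cp j, mem_zpowers_iff.mpr ⟨3, ?_⟩⟩
      have e1 : D.c * D.z * D.p ^ i * (D.c * D.p ^ j) = D.z * D.p ^ ((j : ℤ) - i) := by
        have h := D.c_zpow (i : ℤ)
        rw [zpow_natCast] at h
        calc D.c * D.z * D.p ^ i * (D.c * D.p ^ j)
            = D.z * (D.c * D.p ^ i * D.c) * D.p ^ j := by
              rw [D.hcz.eq]; group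
        _ = D.z * D.p ^ ((j : ℤ) - i) := by
              rw [h, mul_assoc, ← zpow_natCast D.p j, ← zpow_add, neg_add_eq_sub]
      have hp3 : (D.p ^ ((j : ℤ) - i)) ^ (3 : ℤ) = 1 := by
        rw [← zpow_mul, mul_comm, zpow_mul, show (3 : ℤ) = ((orderOf D.p : ℕ) : ℤ) by simp [D.hp],
          zpow_natCast, pow_orderOf_eq_one, one_zpow]
      rw [e1, (D.hpz.zpow_left _).symm.mul_zpow, hp3, mul_one]
      rw [show (3 : ℤ) = 2 + 1 by norm_num, zpow_add_one, zpow_two, D.zz, one_mul]
  change Nat.card ({q : X × X | IsConj D.z q.1 ∧ IsConj D.c q.2 ∧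
    D.z ∈ Subgroup.zpowers (q.1 * q.2)} : Set (X × X)) = 9
  have hinj : ∀ w : X, Set.InjOn (fun i : ℕ => w * D.p ^ i) (Set.Iio 3) := by
    intro w i hi j hj h
    have := mul_left_cancel h
    exact pow_injOn_Iio_orderOf (by rw [D.hp]; exact hi) (by rw [D.hp]; exact hj) this
  rw [hset, Nat.card_coe_set_eq, Set.ncard_prod, Set.ncard_image_of_injOn (hinj _),
    Set.ncard_image_of_injOn (hinj _), Set.ncard_Iio_nat]

include D in
theorem card_X : Nat.card X = 120 := by
  rw [BaerSuzuki.order_formula D.hz D.hc D.not_isConj (fun t ht => D.classes ht),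
    D.card_pairs_c, D.card_pairs_z, D.cardC, D.cardZ]

/-- The four group `{1, c, a, ac}`. -/
def F1 : Subgroup X := C[D.a] ⊓ C[D.c]

theorem mem_F1_iff {y : X} : y ∈ D.F1 ↔ y = 1 ∨ y = D.c ∨ y = D.a ∨ y = D.a * D.c := by
  simp only [F1, Subgroup.mem_inf, mem_centralizer_singleton_iff]
  constructor
  · rintro ⟨h1, h2⟩; exact D.mem_F1 h1 h2
  · rintro (rfl | rfl | rfl | rfl)
    · simp
    · exact ⟨D.hac.symm.eq, rfl⟩
    · exact ⟨rfl, D.hac.eq⟩
    · exact ⟨((Commute.refl D.a).mul_left D.hac.symm).eq, (D.hac.mul_left (Commute.refl D.c)).eq⟩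

theorem mem_normalizer_F1 {g : X} (hc : g * D.c * g⁻¹ ∈ D.F1) (ha : g * D.a * g⁻¹ ∈ D.F1) :
    g ∈ normalizer (D.F1 : Set X) := by
  have hmap : D.F1.map (MulAut.conj g).toMonoidHom = D.F1 := by
    refine Subgroup.eq_of_le_of_card_ge ?_
      (Nat.card_congr (Subgroup.equivMapOfInjective _ _ (MulAut.conj g).injective).toEquiv).le
    rintro w ⟨v, hv, rfl⟩
    simp only [MulEquiv.coe_toMonoidHom, MulAut.conj_apply]
    rcases D.mem_F1_iff.mp hv with rfl | rfl | rfl | rfl
    · simp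
    · exact hc
    · exact ha
    · rw [← conj_mul]; exact mul_mem ha hc
  rw [mem_normalizer_iff]
  intro h
  constructor
  · intro hh
    exact hmap ▸ ⟨h, hh, rfl⟩
  · intro hh
    rw [← hmap] at hh
    obtain ⟨v, hv, he⟩ := hh
    simp only [MulEquiv.coe_toMonoidHom, MulAut.conj_apply] at he
    rwa [← mul_left_cancel (mul_right_cancel he)]

theorem card_normalizer_F1 : Nat.card ↥(normalizer (D.F1 : Set X)) = 24 := by
  classical
  set N := normalizer (D.F1 : Set X) with hN
  have hcF : D.c ∈ D.F1 := D.mem_F1_iff.mpr (by simp)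
  have haF : D.a ∈ D.F1 := D.mem_F1_iff.mpr (by simp)
  have hacF : D.a * D.c ∈ D.F1 := D.mem_F1_iff.mpr (by simp)
  have hzN : D.z ∈ N := by
    refine D.mem_normalizer_F1 ?_ ?_
    · rw [mul_inv_eq_iff_eq_mul.mpr D.hcz.symm.eq]; exact hcF
    · rw [D.z_inv, D.zaz]; exact hacF
  have haN : D.a ∈ N := by
    refine D.mem_normalizer_F1 ?_ ?_
    · rw [mul_inv_eq_iff_eq_mul.mpr D.hac.eq]; exact hcF
    · rw [mul_inv_cancel_right]; exact haF
  have hcN : D.c ∈ N := by
    refine D.mem_normalizer_F1 ?_ ?_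
    · rw [mul_inv_cancel_right]; exact hcF
    · rw [mul_inv_eq_iff_eq_mul.mpr D.hac.symm.eq]; exact haF
  obtain ⟨y, hya, hyc⟩ := D.exists_y
  have hyN : y ∈ N := by
    refine D.mem_normalizer_F1 (hyc ▸ hacF) ?_
    rw [mul_inv_eq_iff_eq_mul.mpr hya.eq]; exact haF
  have hT : N ⊓ centralizer ({D.c} : Set X) = centralizer ({D.c} : Set X) := by
    refine inf_eq_right.mpr fun w hw => ?_
    rcases D.mem_eight (mem_centralizer_singleton_iff.mp hw) with
      rfl | rfl | rfl | rfl | rfl | rfl | rfl | rfl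
    · exact one_mem N
    · exact hzN
    · exact hcN
    · exact mul_mem hzN hcN
    · exact haN
    · exact mul_mem hzN haN
    · exact mul_mem haN hcN
    · exact mul_mem (mul_mem hzN haN) hcN
  have horb : {w | ∃ l ∈ N, l * D.c * l⁻¹ = w} = ({D.c, D.a, D.a * D.c} : Set X) := by
    ext w
    simp only [Set.mem_setOf_eq, Set.mem_insert_iff, Set.mem_singleton_iff]
    constructor
    · rintro ⟨l, hl, rfl⟩
      rcases D.mem_F1_iff.mp ((mem_normalizer_iff.mp hl D.c).mp hcF) with e | e | e | e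
      · exact absurd (conj_eq_one_iff.mp e) D.c_ne_one
      · exact Or.inl e
      · exact Or.inr (Or.inl e)
      · exact Or.inr (Or.inr e)
    · rintro (rfl | rfl | rfl)
      · exact ⟨1, one_mem N, by simp⟩
      · refine ⟨D.z * y, mul_mem hzN hyN, ?_⟩
        calc D.z * y * D.c * (D.z * y)⁻¹ = D.z * (y * D.c * y⁻¹) * D.z⁻¹ := by group
        _ = D.z * D.a * D.z⁻¹ * (D.z * D.c * D.z⁻¹) := by rw [hyc]; group
        _ = D.a := by
          rw [D.z_inv, D.zaz, ← D.hcz.eq, mul_assoc D.c, D.zz, mul_one, mul_assoc, D.cc, mul_one]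
      · exact ⟨y, hyN, hyc⟩
  have h3 : ({D.c, D.a, D.a * D.c} : Set X).ncard = 3 := by
    rw [Set.ncard_insert_of_notMem, Set.ncard_pair fun e => D.c_ne_one (mul_eq_left.mp e.symm)]
    simp only [Set.mem_insert_iff, Set.mem_singleton_iff, not_or]
    exact ⟨D.a_ne_c.symm, fun e => ne_one_of_orderOf_two D.ha (mul_eq_right.mp e.symm)⟩
  rw [card_eq_card_inf_mul_orbit N D.c, hT, D.cardC, horb, h3]

theorem class_ncard (x : X) :
    Nat.card (centralizer ({x} : Set X)) * {w | IsConj x w}.ncard = Nat.card X := by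
  have h := card_eq_card_inf_mul_orbit (⊤ : Subgroup X) x
  rw [top_inf_eq, Subgroup.card_top] at h
  rw [h]
  congr 2
  ext w
  simp [isConj_iff]

include D in
theorem nonempty_equiv_perm : Nonempty (X ≃* Equiv.Perm (Fin 5)) := by
  classical
  set N := normalizer (D.F1 : Set X) with hN
  have hidx : Nat.card (X ⧸ N) = 5 := by
    have := Subgroup.card_mul_index N
    rw [hN, D.card_normalizer_F1, D.card_X] at this
    change N.index = 5
    rw [hN]
    omega
  let f : X →* Equiv.Perm (X ⧸ N) := MulAction.toPermHom X (X ⧸ N)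
  have hker : f.ker = N.normalCore := (Subgroup.normalCore_eq_ker N).symm
  set K := N.normalCore with hK
  have hKN : K ≤ N := N.normalCore_le
  have hKn : K.Normal := inferInstance
  have hclosed : ∀ {x w : X}, x ∈ K → IsConj x w → w ∈ K := by
    intro x w hx hw
    obtain ⟨g, rfl⟩ := isConj_iff.mp hw
    exact hKn.conj_mem x hx g
  have hc15 : {w | IsConj D.c w}.ncard = 15 := by
    have := class_ncard D.c
    rw [D.cardC, D.card_X] at this
    omega
  have hz10 : {w | IsConj D.z w}.ncard = 10 := by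
    have := class_ncard D.z
    rw [D.cardZ, D.card_X] at this
    omega
  have hK24 : Nat.card K ∣ 24 := D.card_normalizer_F1 ▸ card_dvd_of_le hKN
  have hcK : D.c ∉ K := by
    intro hc
    have hsub : {w | IsConj D.c w} ⊆ (K : Set X) := fun w hw => hclosed hc hw
    have h15 := Set.ncard_le_ncard hsub
    rw [hc15, ← Nat.card_coe_set_eq] at h15
    change 15 ≤ Nat.card K at h15
    have hK' : Nat.card K = 24 := by
      have := Nat.le_of_dvd (by norm_num) hK24
      interval_cases (Nat.card K) <;> simp_all +decide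
    have heq : K = N := Subgroup.eq_of_le_of_card_ge hKN (by rw [hK', hN, D.card_normalizer_F1])
    have hzK : D.z ∈ K := by
      rw [heq]
      refine D.mem_normalizer_F1 ?_ ?_
      · rw [mul_inv_eq_iff_eq_mul.mpr D.hcz.symm.eq]; exact D.mem_F1_iff.mpr (by simp)
      · rw [D.z_inv, D.zaz]; exact D.mem_F1_iff.mpr (by simp)
    have hsub2 : {w | IsConj D.c w} ∪ {w | IsConj D.z w} ⊆ (K : Set X) :=
      Set.union_subset hsub fun w hw => hclosed hzK hw
    have hdisj : Disjoint {w | IsConj D.c w} {w | IsConj D.z w} := by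
      rw [Set.disjoint_left]
      intro w hw hw'
      exact D.not_isConj (IsConj.trans hw' (IsConj.symm hw))
    have := Set.ncard_le_ncard hsub2
    rw [Set.ncard_union_eq hdisj, hc15, hz10, ← Nat.card_coe_set_eq] at this
    change 25 ≤ Nat.card K at this
    omega
  have hint : ∀ w, w ∈ K → w ∈ D.F1 → w = 1 := by
    intro w hw hwF
    rcases D.mem_F1_iff.mp hwF with rfl | rfl | rfl | rfl
    · rfl
    · exact absurd hw hcK
    · exact absurd (hclosed hw D.isConj_c_a.symm) hcK
    · exact absurd (hclosed hw D.isConj_c_ac.symm) hcK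
  have hbot : K = ⊥ := by
    refine (Subgroup.eq_bot_iff_forall K).mpr fun k hk => ?_
    have hfix : ∀ f ∈ D.F1, Commute k f := by
      intro f hf
      have h1 : k * f * k⁻¹ * f⁻¹ ∈ K := by
        have e : k * f * k⁻¹ * f⁻¹ = k * (f * k⁻¹ * f⁻¹) := by group
        rw [e]; exact K.mul_mem hk (hKn.conj_mem _ (K.inv_mem hk) f)
      have h2 : k * f * k⁻¹ * f⁻¹ ∈ D.F1 :=
        D.F1.mul_mem ((mem_normalizer_iff.mp (hKN hk) f).mp hf) (D.F1.inv_mem hf)
      exact mul_inv_eq_iff_eq_mul.mp (mul_inv_eq_one.mp (hint _ h1 h2))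
    refine hint k hk (D.mem_F1_iff.mpr (D.mem_F1 ?_ ?_))
    · exact hfix _ (D.mem_F1_iff.mpr (by simp))
    · exact hfix _ (D.mem_F1_iff.mpr (by simp))
  have hinj : Function.Injective f := (MonoidHom.ker_eq_bot_iff f).mp (hker.trans hbot)
  have := Fintype.ofFinite (X ⧸ N)
  have hbij : Function.Bijective f := by
    refine (Nat.bijective_iff_injective_and_card f).mpr ⟨hinj, ?_⟩
    rw [D.card_X, Nat.card_perm, hidx]
    rfl
  exact ⟨(MulEquiv.ofBijective f hbij).trans
    ((Finite.equivFinOfCardEq hidx).permCongrHom)⟩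

end CoreData

/-- Recognition of the symmetric group of degree five. -/
theorem core {z p : X} (hz : orderOf z = 2) (hzC : Nat.card (centralizer ({z} : Set X)) = 12)
    (hp : orderOf p = 3) (hpz : Commute p z) (hpC : Nat.card (centralizer ({p} : Set X)) = 6)
    (hinv : ∀ x : X, orderOf x = 2 →
      Nat.card (centralizer ({x} : Set X)) = 12 ∨ Nat.card (centralizer ({x} : Set X)) = 8)
    {u : X} (huC : Nat.card (centralizer ({u} : Set X)) = 8) :
    Nonempty (X ≃* Equiv.Perm (Fin 5)) ∧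
      ∀ x : X, orderOf x = 2 → Nat.card (centralizer ({x} : Set X)) = 12 → IsConj z x := by
  classical
  obtain ⟨Q, hQ⟩ := (IsPGroup.of_card (n := 3) (G := ↥(centralizer ({u} : Set X)))
    (by rw [huC]; norm_num)).exists_le_sylow (p := 2)
  have h8 : 8 ∣ Nat.card (Q : Subgroup X) := huC ▸ card_dvd_of_le hQ
  have hnt : Nontrivial ↥(Q : Subgroup X) := by
    rw [← Finite.one_lt_card_iff_nontrivial]
    have := Nat.le_of_dvd Nat.card_pos h8
    omega
  have := Q.isPGroup'.center_nontrivial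
  obtain ⟨c', hc', hc'2⟩ : ∃ c' : Subgroup.center ↥(Q : Subgroup X), c' ≠ 1 ∧ orderOf c' = 2 := by
    have hP : IsPGroup 2 (Subgroup.center ↥(Q : Subgroup X)) := Q.isPGroup'.to_subgroup _
    obtain ⟨n, hn⟩ := IsPGroup.iff_card.mp hP
    have h1 : 1 < Nat.card (Subgroup.center ↥(Q : Subgroup X)) :=
      Finite.one_lt_card_iff_nontrivial.mpr inferInstance
    have h2 : 2 ∣ Nat.card (Subgroup.center ↥(Q : Subgroup X)) := by
      rw [hn] at h1 ⊢
      exact dvd_pow_self 2 (by rintro rfl; simp at h1)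
    have : Fact (Nat.Prime 2) := ⟨Nat.prime_two⟩
    obtain ⟨c', hc'⟩ := exists_prime_orderOf_dvd_card' 2 h2
    exact ⟨c', fun e => by simp [e] at hc', hc'⟩
  set c : X := ((c' : ↥(Q : Subgroup X)) : X) with hcdef
  have hc : orderOf c = 2 := by rw [hcdef, Subgroup.orderOf_coe, Subgroup.orderOf_coe, hc'2]
  have hQle : (Q : Subgroup X) ≤ centralizer ({c} : Set X) := fun y hy =>
    mem_centralizer_singleton_iff.mpr
      (congrArg Subtype.val (Subgroup.mem_center_iff.mp c'.2 ⟨y, hy⟩))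
  have hcC : Nat.card (centralizer ({c} : Set X)) = 8 := by
    rcases hinv c hc with h | h
    · exfalso
      have := h8.trans (card_dvd_of_le hQle)
      rw [h] at this
      norm_num at this
    · exact h
  obtain ⟨R, hR⟩ := (IsPGroup.of_card (n := 1) (G := ↥(Subgroup.zpowers z))
    (by rw [Nat.card_zpowers, hz]; norm_num)).exists_le_sylow (p := 2)
  obtain ⟨g, hg⟩ := MulAction.exists_smul_eq X R Q
  have hzQ : g * z * g⁻¹ ∈ (Q : Subgroup X) := by
    rw [← hg]
    simp only [Sylow.coe_subgroup_smul, Subgroup.mem_smul_pointwise_iff_exists]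
    exact ⟨z, hR (Subgroup.mem_zpowers z), rfl⟩
  let D : CoreData X :=
    { c := c, z := g * z * g⁻¹, p := g * p * g⁻¹
      hc := hc
      hz := (orderOf_mul_conj _ _).trans hz
      hp := (orderOf_mul_conj _ _).trans hp
      cardC := hcC
      cardZ := by rw [card_centralizer_conj, hzC]
      cardP := by rw [card_centralizer_conj, hpC]
      hcz := (mem_centralizer_singleton_iff.mp (hQle hzQ) : Commute _ _).symm
      hpz := by
        show g * p * g⁻¹ * (g * z * g⁻¹) = g * z * g⁻¹ * (g * p * g⁻¹)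
        rw [conj_mul, conj_mul, hpz.eq]
      hinv := hinv }
  refine ⟨D.nonempty_equiv_perm, fun x hx h => ?_⟩
  exact (isConj_iff.mpr ⟨g, rfl⟩ : IsConj z D.z).trans (D.isConj_z_of_card hx h)

end CfsgLib.J4Seven39
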