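import Cfsg.Agent.J4Seven39.Fusion
import Cfsg.Agent.J4Seven39.Core
import Cfsg.Prelude.Def_TwoFusion

/-!
# The structure of the centraliser and normalizer of the subgroup of order seven
-/

set_option autoImplicit false

namespace CfsgLib.J4Seven39

open Subgroup

namespace Conf

variable {G : Type*} [Group G] [Finite G] (c : Conf G)

/-- The centraliser of `s`. -/
def CS : Subgroup G := centralizer ({c.s} : Set G)

theorem mem_CS {x : G} : x ∈ c.CS ↔ Commute x c.s := mem_centralizer_singleton_iff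

/-- `⟨s⟩` inside its centraliser. -/
def SS : Subgroup ↥c.CS := (Subgroup.zpowers c.s).subgroupOf c.CS

omit [Finite G] in
theorem zpowers_le_CS : Subgroup.zpowers c.s ≤ c.CS :=
  Subgroup.zpowers_le.2 (mem_centralizer_singleton_iff.2 rfl)

instance normal_SS : c.SS.Normal := by
  refine ⟨fun n hn g => ?_⟩
  rw [SS, Subgroup.mem_subgroupOf] at hn ⊢
  obtain ⟨i, hi⟩ := Subgroup.mem_zpowers_iff.1 hn
  have hg : Commute (g : G) c.s := mem_centralizer_singleton_iff.1 g.2
  simp only [Subgroup.coe_mul, Subgroup.coe_inv, ← hi]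
  rw [(hg.zpow_right i).eq, mul_inv_cancel_right]
  exact Subgroup.mem_zpowers_iff.2 ⟨i, rfl⟩

theorem card_SS : Nat.card c.SS = 7 := by
  rw [SS, Nat.card_congr (Subgroup.subgroupOfEquivOfLe c.zpowers_le_CS).toEquiv, Nat.card_zpowers,
    c.hs]

local notation "π" => QuotientGroup.mk' (SS c)

theorem pi_eq_iff {u v : ↥c.CS} (hu : u * u = 1) (hv : v * v = 1) : π u = π v ↔ u = v := by
  refine ⟨fun h => ?_, fun h => h ▸ rfl⟩
  rw [QuotientGroup.mk'_apply, QuotientGroup.mk'_apply, QuotientGroup.eq, SS,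
    Subgroup.mem_subgroupOf] at h
  obtain ⟨i, hi⟩ := Subgroup.mem_zpowers_iff.1 h
  simp only [Subgroup.coe_mul, Subgroup.coe_inv] at hi
  have hu' : (u : G) * u = 1 := congrArg Subtype.val hu
  have hv' : (v : G) * v = 1 := congrArg Subtype.val hv
  have hve : (v : G) = u * c.s ^ i := by rw [hi, mul_inv_cancel_left]
  have hus : Commute (u : G) (c.s ^ i) :=
    (show Commute (u : G) c.s from mem_centralizer_singleton_iff.1 u.2).zpow_right i
  rw [hve, hus.symm.mul_mul_mul_comm, hu', one_mul, ← zpow_add] at hv'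
  have h7 := orderOf_dvd_iff_zpow_eq_one.2 hv'
  rw [c.hs] at h7
  obtain ⟨j, hj⟩ : (7 : ℤ) ∣ i := by omega
  refine Subtype.ext ?_
  rw [hve, hj, zpow_mul, show (7 : ℤ) = ((orderOf c.s : ℕ) : ℤ) by simp [c.hs], zpow_natCast,
    pow_orderOf_eq_one, one_zpow, mul_one]

theorem orderOf_pi {r : ℕ} (hr : r.Prime) (hr7 : r ≠ 7) {u : ↥c.CS} (hu : orderOf u = r) :
    orderOf (π u) = r := by
  have : Fact r.Prime := ⟨hr⟩
  refine orderOf_map_eq _ hu ?_
  rw [QuotientGroup.ker_mk', c.card_SS]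
  intro h
  exact hr7 ((Nat.prime_dvd_prime_iff_eq hr (by norm_num)).1 h)

/-- Centralisers in the quotient. -/
theorem card_quot_centralizer {r : ℕ} (hr : r.Prime) (hr7 : r ≠ 7) {u : ↥c.CS}
    (hu : orderOf u = r) :
    Nat.card (centralizer ({π u} : Set (↥c.CS ⧸ c.SS))) * 7 =
      Nat.card ↥(c.CS ⊓ centralizer ({(u : G)} : Set G)) := by
  have : Fact r.Prime := ⟨hr⟩
  have hk : ¬ r ∣ Nat.card (π).ker := by
    rw [QuotientGroup.ker_mk', c.card_SS]
    intro h
    exact hr7 ((Nat.prime_dvd_prime_iff_eq hr (by norm_num)).1 h)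
  have h := card_eq_map_mul (π) (centralizer ({u} : Set ↥c.CS))
  rw [map_centralizer (π) (QuotientGroup.mk'_surjective _) hu hk] at h
  have hle : (π).ker ≤ centralizer ({u} : Set ↥c.CS) := by
    intro x hx
    rw [QuotientGroup.ker_mk', SS, Subgroup.mem_subgroupOf] at hx
    obtain ⟨i, hi⟩ := Subgroup.mem_zpowers_iff.1 hx
    refine mem_centralizer_singleton_iff.2 (Subtype.ext ?_)
    simp only [Subgroup.coe_mul, ← hi]
    exact ((show Commute (u : G) c.s from mem_centralizer_singleton_iff.1 u.2).zpow_right i).eq.symm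
  rw [inf_eq_right.2 hle, QuotientGroup.ker_mk', c.card_SS] at h
  rw [← h, card_eq_card_inf (centralizer ({u} : Set ↥c.CS)) (centralizer ({(u : G)} : Set G))]
  intro x
  simp only [mem_centralizer_singleton_iff, ← Subtype.coe_inj, Subgroup.coe_mul]

/-- Lifts of elements of order two or three. -/
theorem exists_lift {r : ℕ} (hr : r = 2 ∨ r = 3) {x : ↥c.CS ⧸ c.SS} (hx : orderOf x = r) :
    ∃ u : ↥c.CS, orderOf u = r ∧ π u = x := by
  obtain ⟨w, rfl⟩ := QuotientGroup.mk'_surjective _ x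
  have hrp : r.Prime := by rcases hr with rfl | rfl <;> norm_num
  refine ⟨w ^ 7, ?_, ?_⟩
  · have : Fact r.Prime := ⟨hrp⟩
    refine orderOf_eq_prime ?_ ?_
    · have h1 : (π w) ^ r = 1 := hx ▸ pow_orderOf_eq_one _
      rw [← map_pow, QuotientGroup.mk'_apply, QuotientGroup.eq_one_iff] at h1
      have h2 := Subgroup.orderOf_dvd_natCard _ h1
      rw [c.card_SS] at h2
      rw [← pow_mul, mul_comm, pow_mul]
      exact orderOf_dvd_iff_pow_eq_one.1 h2
    · intro h1
      have h2 : (π w) ^ 7 = 1 := by rw [← map_pow, h1, map_one]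
      have h3 := orderOf_dvd_of_pow_eq_one h2
      rw [hx] at h3
      rcases hr with rfl | rfl <;> norm_num at h3
  · rw [map_pow, ← pow_mod_orderOf, hx]
    rcases hr with rfl | rfl <;> norm_num

theorem card_N_inf : Nat.card ↥(c.N ⊓ centralizer ({c.s} : Set G)) = 6 := by
  rw [c.card_CN, c.card_E0]

theorem card_CS_H : Nat.card ↥(c.CS ⊓ c.H) = 84 := by
  rw [inf_comm]
  change Nat.card ↥(c.H ⊓ centralizer ({c.s} : Set G)) = 84
  rw [c.card_CH.1, c.card_N_inf]

theorem card_quot_z {u : ↥c.CS} (hu : orderOf u = 2) (hz : IsConj c.z (u : G)) :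
    Nat.card (centralizer ({π u} : Set (↥c.CS ⧸ c.SS))) = 12 := by
  have hus : Commute (u : G) c.s := mem_centralizer_singleton_iff.1 u.2
  obtain ⟨g, hgu, hgs⟩ := c.exists_conj_z hz hus
  have h84 : Nat.card ↥(c.CS ⊓ centralizer ({(u : G)} : Set G)) = 84 := by
    rw [← Subgroup.card_map_of_injective (f := (MulAut.conj g).toMonoidHom)
      (MulAut.conj g).injective, ← c.card_CS_H]
    congr 2
    ext x
    simp only [Subgroup.mem_map, MulEquiv.coe_toMonoidHom, MulAut.conj_apply, Subgroup.mem_inf]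
    constructor
    · rintro ⟨a, ⟨ha1, ha2⟩, rfl⟩
      refine ⟨c.mem_CS.2 ((hgs a).2 (c.mem_CS.1 ha1)), c.mem_H.2 ?_⟩
      rw [← hgu]
      exact (commute_conj_iff g a u).2 (mem_centralizer_singleton_iff.1 ha2)
    · rintro ⟨hx1, hx2⟩
      have e : g * (g⁻¹ * x * g) * g⁻¹ = x := by group
      refine ⟨g⁻¹ * x * g, ⟨c.mem_CS.2 ((hgs _).1 (by rw [e]; exact c.mem_CS.1 hx1)), ?_⟩, e⟩
      refine mem_centralizer_singleton_iff.2 ((commute_conj_iff g _ (u : G)).1 ?_).eq
      rw [e, hgu]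
      exact c.mem_H.1 hx2
  have := c.card_quot_centralizer Nat.prime_two (by norm_num) hu
  rw [h84] at this
  omega

theorem exists_two_pow_A {u : ↥c.CS} {V K : Subgroup G} (hd : TData (u : G) V K) :
    ∃ m, 2 ≤ m ∧ Nat.card ↥(V ⊓ centralizer ({c.s} : Set G)) = 2 ^ m := by
  have hus : Commute c.s (u : G) :=
    (mem_centralizer_singleton_iff.1 u.2 : Commute (u : G) c.s).symm
  obtain ⟨-, hmod, -, -⟩ := tdata_seven hd hus c.hs
  obtain ⟨m, -, hm⟩ := (Nat.dvd_prime_pow (by norm_num : Nat.Prime 2)).1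
    (hd.2.2.2.2.1 ▸ Subgroup.card_dvd_of_le
      (inf_le_left : V ⊓ centralizer ({c.s} : Set G) ≤ V))
  refine ⟨m, ?_, hm⟩
  rw [hm] at hmod
  by_contra h
  interval_cases m <;> simp at hmod

theorem card_quot_t {u : ↥c.CS} (hu : orderOf u = 2) {V K : Subgroup G}
    (hd : TData (u : G) V K) :
    Nat.card (centralizer ({π u} : Set (↥c.CS ⧸ c.SS))) =
      2 * Nat.card ↥(V ⊓ centralizer ({c.s} : Set G)) := by
  have hus : Commute c.s (u : G) :=
    (mem_centralizer_singleton_iff.1 u.2 : Commute (u : G) c.s).symm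
  obtain ⟨h14, -, -, -⟩ := tdata_seven hd hus c.hs
  have h := c.card_quot_centralizer Nat.prime_two (by norm_num) hu
  rw [inf_comm] at h
  change _ = Nat.card ↥(centralizer ({(u : G)} : Set G) ⊓ centralizer ({c.s} : Set G)) at h
  rw [h14] at h
  omega

/-- `z` inside the centraliser of `s`. -/
def zS : ↥c.CS := ⟨c.z, mem_centralizer_singleton_iff.2 c.hsz.symm.eq⟩

theorem orderOf_zS : orderOf c.zS = 2 := by
  rw [← Subgroup.orderOf_coe]; exact c.hz

theorem card_quot_zS : Nat.card (centralizer ({π c.zS} : Set (↥c.CS ⧸ c.SS))) = 12 :=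
  c.card_quot_z c.orderOf_zS (IsConj.refl _)

/-- Some involution of the quotient has a centraliser of order 8, and all have order 8 or 12. -/
theorem quotient_facts :
    (∃ x : ↥c.CS ⧸ c.SS, orderOf x = 2 ∧
      Nat.card (centralizer ({x} : Set (↥c.CS ⧸ c.SS))) = 8 ∧
      ∃ g : ↥c.CS ⧸ c.SS, Commute (g * π c.zS * g⁻¹) x) ∧
    ∀ x : ↥c.CS ⧸ c.SS, orderOf x = 2 →
      Nat.card (centralizer ({x} : Set (↥c.CS ⧸ c.SS))) = 12 ∨
      Nat.card (centralizer ({x} : Set (↥c.CS ⧸ c.SS))) = 8 := by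
  have : Fact (Nat.Prime 2) := ⟨Nat.prime_two⟩
  obtain ⟨w, hw2, hwt, hws⟩ := c.exists_t_commute
  set wS : ↥c.CS := ⟨w, c.mem_CS.2 hws⟩
  have hwo : orderOf wS = 2 := by rw [← Subgroup.orderOf_coe]; exact hw2
  obtain ⟨Vw, Kw, hdw⟩ := c.tcent w hw2 hwt
  obtain ⟨m, hm2, hm⟩ := c.exists_two_pow_A (u := wS) hdw
  have hcw := c.card_quot_t hwo (V := Vw) (K := Kw) hdw
  rw [hm, ← pow_succ'] at hcw
  obtain ⟨T, hT⟩ := (IsPGroup.of_card hcw).exists_le_sylow
  have h8T : 8 ∣ Nat.card (T : Subgroup (↥c.CS ⧸ c.SS)) := by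
    refine dvd_trans ?_ (Subgroup.card_dvd_of_le hT)
    rw [hcw, show (8 : ℕ) = 2 ^ 3 by norm_num]
    exact pow_dvd_pow 2 (by omega)
  have hTnt : Nontrivial ↥(T : Subgroup (↥c.CS ⧸ c.SS)) := by
    rw [← Finite.one_lt_card_iff_nontrivial]
    have := Nat.le_of_dvd Nat.card_pos h8T
    omega
  have := T.isPGroup'.center_nontrivial
  obtain ⟨x', hx'2⟩ : ∃ x' : Subgroup.center ↥(T : Subgroup (↥c.CS ⧸ c.SS)), orderOf x' = 2 := by
    obtain ⟨n, hn⟩ := IsPGroup.iff_card.1 (T.isPGroup'.to_subgroup (Subgroup.center _))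
    refine exists_prime_orderOf_dvd_card' 2 ?_
    have h1 := Finite.one_lt_card_iff_nontrivial.2
      (inferInstance : Nontrivial (Subgroup.center ↥(T : Subgroup (↥c.CS ⧸ c.SS))))
    rw [hn] at h1 ⊢
    exact dvd_pow_self 2 (by rintro rfl; simp at h1)
  set x : ↥c.CS ⧸ c.SS := ((x' : ↥(T : Subgroup (↥c.CS ⧸ c.SS))) : ↥c.CS ⧸ c.SS) with hxdef
  have hxo : orderOf x = 2 := by rw [hxdef, Subgroup.orderOf_coe, Subgroup.orderOf_coe, hx'2]
  have hTle : (T : Subgroup (↥c.CS ⧸ c.SS)) ≤ centralizer ({x} : Set _) := fun y hy =>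
    mem_centralizer_singleton_iff.2
      (congrArg Subtype.val (Subgroup.mem_center_iff.1 x'.2 ⟨y, hy⟩))
  obtain ⟨u, hu2, hux⟩ := c.exists_lift (Or.inl rfl) hxo
  have hut : ¬ IsConj c.z (u : G) := by
    intro h
    have h12 := c.card_quot_z hu2 h
    rw [hux] at h12
    have := h8T.trans (Subgroup.card_dvd_of_le hTle)
    rw [h12] at this
    norm_num at this
  have hu2' : orderOf (u : G) = 2 := (Subgroup.orderOf_coe u).trans hu2
  obtain ⟨V, K, hd⟩ := c.tcent (u : G) hu2' hut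
  obtain ⟨k, hk2, hk⟩ := c.exists_two_pow_A hd
  have hcu := c.card_quot_t hu2 hd
  rw [hk, ← pow_succ', hux] at hcu
  have hTeq : (T : Subgroup (↥c.CS ⧸ c.SS)) = centralizer ({x} : Set _) :=
    (T.is_maximal' (IsPGroup.of_card hcu) hTle).symm
  -- a conjugate of `z` in `T`
  have hzo : orderOf (π c.zS) = 2 := c.orderOf_pi Nat.prime_two (by norm_num) c.orderOf_zS
  obtain ⟨R, hR⟩ := (IsPGroup.of_card (n := 1) (G := ↥(Subgroup.zpowers (π c.zS)))
    (by rw [Nat.card_zpowers, hzo]; norm_num)).exists_le_sylow (p := 2)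
  obtain ⟨g, hg⟩ := MulAction.exists_smul_eq (↥c.CS ⧸ c.SS) R T
  have hzT : g * π c.zS * g⁻¹ ∈ (T : Subgroup (↥c.CS ⧸ c.SS)) := by
    rw [← hg]
    simp only [Sylow.coe_subgroup_smul, Subgroup.mem_smul_pointwise_iff_exists]
    exact ⟨_, hR (Subgroup.mem_zpowers _), rfl⟩
  have hcomm : Commute (g * π c.zS * g⁻¹) x :=
    mem_centralizer_singleton_iff.1 (hTle hzT)
  obtain ⟨y, hy2, hyx⟩ := c.exists_lift (Or.inl rfl) ((orderOf_mul_conj g (π c.zS)).trans hzo)
  have hy12 : Nat.card (centralizer ({π y} : Set (↥c.CS ⧸ c.SS))) = 12 := by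
    rw [hyx, card_centralizer_conj, c.card_quot_zS]
  have hyu : Commute (y : G) (u : G) := by
    have h1 : Commute (π y) (π u) := by rw [hyx, hux]; exact hcomm
    have hu1 : u * u = 1 := by rw [← pow_two, ← hu2, pow_orderOf_eq_one]
    have hy1 : y * y = 1 := by rw [← pow_two, ← hy2, pow_orderOf_eq_one]
    have h2 : π (y * u * y⁻¹) = π u := by
      rw [map_mul, map_mul, map_inv]; exact mul_inv_eq_iff_eq_mul.2 h1.eq
    have h3 : (y * u * y⁻¹) * (y * u * y⁻¹) = 1 := by rw [conj_mul, hu1]; group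
    have := mul_inv_eq_iff_eq_mul.1 ((c.pi_eq_iff h3 hu1).1 h2)
    exact congrArg Subtype.val this
  have hy84 : Nat.card ↥(c.CS ⊓ centralizer ({(y : G)} : Set G)) = 84 := by
    rw [← c.card_quot_centralizer Nat.prime_two (by norm_num) hy2, hy12]
  set A := V ⊓ centralizer ({c.s} : Set G) with hAdef
  have hVe := hd.2.2.2.1
  have hA : ∀ a ∈ A, a * a = 1 := fun a ha => by
    have := hVe.2 a ha.1; rwa [pow_two] at this
  have hAc : ∀ a ∈ A, ∀ b ∈ A, Commute a b := fun a ha b hb => by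
    have := hVe.1
    exact congrArg Subtype.val (mul_comm' (⟨a, ha.1⟩ : V) ⟨b, hb.1⟩)
  have hys : Commute (y : G) c.s := mem_centralizer_singleton_iff.1 y.2
  have hyy : (y : G) * y = 1 := by
    rw [← pow_two, ← (Subgroup.orderOf_coe y).trans hy2, pow_orderOf_eq_one]
  have htwo : ∀ L : Subgroup G, IsPGroup 2 ↥L → L ≤ c.CS ⊓ centralizer ({(y : G)} : Set G) →
      Nat.card L ≤ 4 := by
    intro L hL hLle
    have h1 := hy84 ▸ Subgroup.card_dvd_of_le hLle
    obtain ⟨n, hn⟩ := IsPGroup.iff_card.1 hL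
    rw [hn] at h1 ⊢
    have hn3 : n < 3 := by
      by_contra h
      have := (pow_dvd_pow 2 (not_lt.1 h)).trans h1
      norm_num at this
    exact Nat.pow_le_pow_right (by norm_num) (show n ≤ 2 by omega)
  have hA4 : Nat.card A ≤ 4 := by
    by_cases hyA : (y : G) ∈ A
    · exact htwo A (IsPGroup.of_card hk) fun a ha =>
        ⟨ha.2, mem_centralizer_singleton_iff.2 (hAc a ha _ hyA).eq⟩
    · set B := A ⊓ centralizer ({(y : G)} : Set G) with hB
      have hyA' : ∀ a ∈ A, (y : G) * a * (y : G)⁻¹ ∈ A := by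
        intro a ha
        refine ⟨(mem_normalizer_iff.1 (hd.2.2.1 (mem_centralizer_singleton_iff.2 hyu.eq)) a).1 ha.1,
          mem_centralizer_singleton_iff.2 ?_⟩
        have has : Commute a c.s := mem_centralizer_singleton_iff.1 ha.2
        exact ((hys.mul_left has).mul_left hys.inv_left).eq
      have hsq := card_le_sq hA hyA' hyy
      change Nat.card A ≤ Nat.card B * Nat.card B at hsq
      have hnorm : Subgroup.zpowers (y : G) ≤ normalizer (B : Set G) := by
        refine Subgroup.zpowers_le.2 (mem_normalizer_iff.2 fun a => ?_)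
        constructor
        · intro ha
          have hay : Commute a (y : G) := mem_centralizer_singleton_iff.1 ha.2
          rw [hay.symm.eq, mul_inv_cancel_right]
          exact ha
        · intro ha
          have hay : Commute ((y : G) * a * (y : G)⁻¹) (y : G) :=
            mem_centralizer_singleton_iff.1 ha.2
          have e : (y : G) * a * (y : G)⁻¹ = a := by
            calc (y : G) * a * (y : G)⁻¹
                = (y : G)⁻¹ * ((y : G) * ((y : G) * a * (y : G)⁻¹)) := by group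
            _ = (y : G)⁻¹ * ((y : G) * a * (y : G)⁻¹ * (y : G)) := by rw [hay.eq]
            _ = a := by group
          rwa [e] at ha
      have hL2 : IsPGroup 2 ↥(Subgroup.zpowers (y : G) ⊔ B) :=
        (IsPGroup.of_card (n := 1) (by
          rw [Nat.card_zpowers, (Subgroup.orderOf_coe y).trans hy2]; norm_num)).to_sup_of_normal_right'
          ((IsPGroup.of_card hk).to_le inf_le_left) hnorm
      have hL := htwo _ hL2 (sup_le
        (Subgroup.zpowers_le.2 ⟨y.2, mem_centralizer_singleton_iff.2 rfl⟩)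
        (fun a ha => ⟨ha.1.2, ha.2⟩))
      have hlt : 2 * Nat.card B ≤ Nat.card ↥(Subgroup.zpowers (y : G) ⊔ B) := by
        obtain ⟨q, hq⟩ := Subgroup.card_dvd_of_le
          (le_sup_right : B ≤ Subgroup.zpowers (y : G) ⊔ B)
        rw [hq, mul_comm]
        refine Nat.mul_le_mul_left _ ?_
        rcases Nat.lt_or_ge q 2 with h | h
        · exfalso
          have heq : B = Subgroup.zpowers (y : G) ⊔ B :=
            Subgroup.eq_of_le_of_card_ge le_sup_right (by
              rw [hq]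
              exact (Nat.mul_le_mul_left _ (show q ≤ 1 by omega)).trans_eq (mul_one _))
          exact hyA ((heq ▸ Subgroup.mem_sup_left (Subgroup.mem_zpowers _) : (y : G) ∈ B)).1
        · exact h
      have hB2 : Nat.card B ≤ 2 := by omega
      exact hsq.trans (Nat.mul_le_mul hB2 hB2)
  have hk' : k = 2 := by
    rw [hk] at hA4
    have : k < 3 := (Nat.pow_lt_pow_iff_right (show 1 < 2 by norm_num)).1 (by omega)
    omega
  subst hk'
  norm_num at hcu
  refine ⟨⟨x, hxo, hcu, g, hcomm⟩, fun q hq => ?_⟩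
  obtain ⟨v, hv2, hvq⟩ := c.exists_lift (Or.inl rfl) hq
  by_cases hvz : IsConj c.z (v : G)
  · left; rw [← hvq]; exact c.card_quot_z hv2 hvz
  · right
    obtain ⟨Vv, Kv, hdv⟩ := c.tcent (v : G) ((Subgroup.orderOf_coe v).trans hv2) hvz
    obtain ⟨l, hl2, hl⟩ := c.exists_two_pow_A hdv
    have hcv := c.card_quot_t hv2 hdv
    rw [hl, ← pow_succ'] at hcv
    obtain ⟨T', hT'⟩ := (IsPGroup.of_card hcv).exists_le_sylow
    have hdvd := Subgroup.card_dvd_of_le hT'
    rw [Sylow.card_eq_multiplicity, ← Sylow.card_eq_multiplicity T, hTeq, hcu, hcv,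
      show (8 : ℕ) = 2 ^ 3 by norm_num, Nat.pow_dvd_pow_iff_le_right (by norm_num)] at hdvd
    rw [← hvq, hcv, show l = 2 by omega]
    norm_num

/-- The quotient is the symmetric group of degree five. -/
theorem quotient_core :
    Nonempty ((↥c.CS ⧸ c.SS) ≃* Equiv.Perm (Fin 5)) ∧
      ∀ x : ↥c.CS ⧸ c.SS, orderOf x = 2 →
        Nat.card (centralizer ({x} : Set (↥c.CS ⧸ c.SS))) = 12 → IsConj (π c.zS) x := by
  obtain ⟨⟨x, hxo, hx8, g, hcomm⟩, hinv⟩ := c.quotient_facts
  obtain ⟨p, hp, hpN, hps, hpC, -⟩ := c.exists_p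
  set pS : ↥c.CS := ⟨p, c.mem_CS.2 hps⟩ with hpS
  have hpo : orderOf pS = 3 := by rw [← Subgroup.orderOf_coe]; exact hp
  have hpz : Commute p c.z := mem_centralizer_singleton_iff.1 (c.hNH hpN)
  have hzo : orderOf (π c.zS) = 2 := c.orderOf_pi Nat.prime_two (by norm_num) c.orderOf_zS
  have hp3 : orderOf (π pS) = 3 := c.orderOf_pi (by norm_num) (by norm_num) hpo
  have hpzq : Commute (π pS) (π c.zS) :=
    (show Commute pS c.zS from Subtype.ext hpz.eq).map (π)
  have hC := c.card_quot_centralizer (by norm_num : Nat.Prime 3) (by norm_num) hpo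
  have hdvd := c.card_CS_H ▸ Subgroup.card_dvd_of_le
    (show c.CS ⊓ centralizer ({(pS : G)} : Set G) ≤ c.CS ⊓ c.H from inf_le_inf_left _ hpC)
  rw [← hC] at hdvd
  have hd12 : Nat.card (centralizer ({π pS} : Set (↥c.CS ⧸ c.SS))) ∣ 12 :=
    Nat.dvd_of_mul_dvd_mul_right (by norm_num : 0 < 7) (show _ * 7 ∣ 12 * 7 from hdvd)
  have h2 : 2 ∣ Nat.card (centralizer ({π pS} : Set (↥c.CS ⧸ c.SS))) :=
    hzo ▸ Subgroup.orderOf_dvd_natCard _ (mem_centralizer_singleton_iff.2 hpzq.symm.eq)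
  have h3 : 3 ∣ Nat.card (centralizer ({π pS} : Set (↥c.CS ⧸ c.SS))) :=
    hp3 ▸ Subgroup.orderOf_dvd_natCard _ (mem_centralizer_singleton_iff.2 rfl)
  have hne : Nat.card (centralizer ({π pS} : Set (↥c.CS ⧸ c.SS))) ≠ 12 := by
    intro h12
    have hle : centralizer ({π pS} : Set (↥c.CS ⧸ c.SS)) ≤ centralizer ({π c.zS} : Set _) := by
      have hle0 : centralizer ({pS} : Set ↥c.CS) ≤ centralizer ({c.zS} : Set ↥c.CS) := by
        intro w hw
        refine mem_centralizer_singleton_iff.2 (Subtype.ext ?_)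
        exact mem_centralizer_singleton_iff.1 (hpC (mem_centralizer_singleton_iff.2
          (congrArg Subtype.val (mem_centralizer_singleton_iff.1 hw))))
      have : Fact (Nat.Prime 3) := ⟨by norm_num⟩
      intro q hq
      rw [← map_centralizer (π) (QuotientGroup.mk'_surjective _) hpo
        (by rw [QuotientGroup.ker_mk', c.card_SS]; norm_num)] at hq
      obtain ⟨w, hw, rfl⟩ := hq
      exact mem_centralizer_singleton_iff.2
        ((show Commute w c.zS from mem_centralizer_singleton_iff.1 (hle0 hw)).map (π)).eq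
    have heq := Subgroup.eq_of_le_of_card_ge hle (by rw [c.card_quot_zS, h12])
    set c' := g⁻¹ * x * g with hc'
    have hc'z : Commute c' (π c.zS) := by
      have := (commute_conj_iff g⁻¹ _ _).2 hcomm
      rw [inv_inv, show g⁻¹ * (g * π c.zS * g⁻¹) * g = π c.zS by group] at this
      exact this.symm
    have hmem : c' ∈ centralizer ({π pS} : Set (↥c.CS ⧸ c.SS)) := by
      rw [heq]; exact mem_centralizer_singleton_iff.2 hc'z.eq
    have h8 : Nat.card (centralizer ({c'} : Set (↥c.CS ⧸ c.SS))) = 8 := by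
      have := card_centralizer_conj g⁻¹ x
      rw [inv_inv] at this
      rw [hc', this, hx8]
    have h38 := Subgroup.orderOf_dvd_natCard _
      (show π pS ∈ centralizer ({c'} : Set (↥c.CS ⧸ c.SS)) from
        mem_centralizer_singleton_iff.2 (mem_centralizer_singleton_iff.1 hmem).symm)
    rw [hp3, h8] at h38
    norm_num at h38
  have h6 : Nat.card (centralizer ({π pS} : Set (↥c.CS ⧸ c.SS))) = 6 := by
    have h6' : 6 ∣ Nat.card (centralizer ({π pS} : Set (↥c.CS ⧸ c.SS))) :=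
      Nat.Coprime.mul_dvd_of_dvd_of_dvd (by norm_num : Nat.Coprime 2 3) h2 h3
    obtain ⟨q, hq⟩ := h6'
    have := Nat.le_of_dvd (by norm_num) hd12
    have := Nat.card_pos (α := centralizer ({π pS} : Set (↥c.CS ⧸ c.SS)))
    omega
  exact core hzo c.card_quot_zS hp3 hpzq h6 hinv hx8

theorem card_CS : Nat.card c.CS = 840 := by
  obtain ⟨⟨e⟩, -⟩ := c.quotient_core
  have h := Subgroup.card_mul_index c.SS
  rw [c.card_SS, Subgroup.index, Nat.card_congr e.toEquiv, Nat.card_perm, Nat.card_fin] at h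
  simpa [Nat.factorial] using h.symm

include c in
theorem not_sq_dvd : ¬ 49 ∣ Nat.card G := by
  intro h49
  have : Fact (Nat.Prime 7) := ⟨by norm_num⟩
  obtain ⟨Q, hQ⟩ := (IsPGroup.of_card (n := 1) (G := ↥(Subgroup.zpowers c.s))
    (by rw [Nat.card_zpowers, c.hs, pow_one])).exists_le_sylow
  have hQ49 : 49 ∣ Nat.card (Q : Subgroup G) := Q.pow_dvd_card_of_pow_dvd_card (n := 2) h49
  have hsmall : ∀ L : Subgroup G, IsPGroup 7 ↥L → Subgroup.zpowers c.s ≤ L → L ≤ c.CS →
      L = Subgroup.zpowers c.s := by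
    intro L hL hle hLC
    symm
    refine Subgroup.eq_of_le_of_card_ge hle ?_
    obtain ⟨n, hn⟩ := IsPGroup.iff_card.1 hL
    have h1 := c.card_CS ▸ Subgroup.card_dvd_of_le hLC
    rw [hn] at h1 ⊢
    rw [Nat.card_zpowers, c.hs]
    have : n < 2 := by
      by_contra h
      have := (pow_dvd_pow 7 (not_lt.1 h)).trans h1
      norm_num at this
    exact Nat.pow_le_pow_right (by norm_num) (show n ≤ 1 by omega) |>.trans_eq (pow_one 7)
  have hnt : Nontrivial ↥(Q : Subgroup G) := by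
    rw [← Finite.one_lt_card_iff_nontrivial]
    have := Nat.le_of_dvd Nat.card_pos hQ49
    omega
  have hQCS : (Q : Subgroup G) ≤ c.CS := by
    set Z : Subgroup G := (Subgroup.center ↥(Q : Subgroup G)).map (Q : Subgroup G).subtype with hZ
    have hZQ : Z ≤ Q := Subgroup.map_subtype_le _
    have hZc : ∀ x ∈ Z, ∀ y ∈ (Q : Subgroup G), Commute y x := by
      rintro _ ⟨x, hx, rfl⟩ y hy
      exact congrArg Subtype.val (Subgroup.mem_center_iff.1 hx ⟨y, hy⟩)
    have hsQ : c.s ∈ (Q : Subgroup G) := hQ (Subgroup.mem_zpowers _)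
    have hL : Subgroup.zpowers c.s ⊔ Z = Subgroup.zpowers c.s :=
      hsmall _ (Q.isPGroup'.to_le (sup_le hQ hZQ)) le_sup_left
        (sup_le c.zpowers_le_CS fun x hx => c.mem_CS.2 (hZc x hx _ hsQ).symm)
    have hZle : Z ≤ Subgroup.zpowers c.s := hL ▸ le_sup_right
    have := Q.isPGroup'.center_nontrivial
    have hZ1 : 1 < Nat.card Z := by
      rw [hZ, Subgroup.card_map_of_injective (Subgroup.subtype_injective _)]
      exact Finite.one_lt_card_iff_nontrivial.2 inferInstance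
    have hdvd := Subgroup.card_dvd_of_le hZle
    rw [Nat.card_zpowers, c.hs, Nat.dvd_prime (by norm_num : Nat.Prime 7)] at hdvd
    have hZeq : Z = Subgroup.zpowers c.s :=
      Subgroup.eq_of_le_of_card_ge hZle (by rw [Nat.card_zpowers, c.hs]; omega)
    intro y hy
    exact c.mem_CS.2 (hZc c.s (hZeq ▸ Subgroup.mem_zpowers _) y hy)
  have := hsmall Q Q.isPGroup' hQ hQCS
  rw [this, Nat.card_zpowers, c.hs] at hQ49
  norm_num at hQ49

theorem card_normalizer_eq :
    Nat.card ↥(normalizer (Subgroup.zpowers c.s : Set G)) = 3 * Nat.card c.CS := by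
  obtain ⟨-, huniq⟩ := c.quotient_core
  set N := normalizer (Subgroup.zpowers c.s : Set G) with hN
  have hCN : c.CS ≤ N := fun x hx => mem_normalizer_zpowers (by
    rw [mul_inv_eq_iff_eq_mul.2 (c.mem_CS.1 hx).eq]; exact Subgroup.mem_zpowers _)
  have horb : {y | ∃ l ∈ N, l * c.z * l⁻¹ = y} = {y | ∃ l ∈ c.CS, l * c.z * l⁻¹ = y} := by
    refine Set.Subset.antisymm ?_ fun y ⟨l, hl, he⟩ => ⟨l, hCN hl, he⟩
    rintro y ⟨l, hl, rfl⟩
    have hls : Commute (l * c.z * l⁻¹) c.s := by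
      obtain ⟨i, hi⟩ := Subgroup.mem_zpowers_iff.1 (conj_mem_zpowers (inv_mem hl))
      rw [inv_inv] at hi
      have e : c.s = l * c.s ^ i * l⁻¹ := by rw [hi]; group
      rw [e]
      exact (commute_conj_iff l _ _).2 (c.hsz.symm.zpow_right i)
    set yS : ↥c.CS := ⟨l * c.z * l⁻¹, c.mem_CS.2 hls⟩ with hyS
    have hyo : orderOf yS = 2 := by
      rw [← Subgroup.orderOf_coe]; exact (orderOf_mul_conj _ _).trans c.hz
    have h12 := c.card_quot_z hyo (isConj_iff.2 ⟨l, rfl⟩)
    obtain ⟨q, hq⟩ := isConj_iff.1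
      (huniq _ (c.orderOf_pi Nat.prime_two (by norm_num) hyo) h12)
    obtain ⟨k, rfl⟩ := QuotientGroup.mk'_surjective _ q
    rw [← map_inv, ← map_mul, ← map_mul] at hq
    have h1 : (k * c.zS * k⁻¹) * (k * c.zS * k⁻¹) = 1 := by
      have : c.zS * c.zS = 1 := Subtype.ext c.zz
      rw [conj_mul, this]; group
    have h2 : yS * yS = 1 := by rw [← pow_two, ← hyo, pow_orderOf_eq_one]
    exact ⟨k, k.2, congrArg Subtype.val ((c.pi_eq_iff h1 h2).1 hq)⟩
  have h1 := card_eq_card_inf_mul_orbit N c.z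
  have h2 := card_eq_card_inf_mul_orbit c.CS c.z
  rw [horb] at h1
  rw [h1, h2, ← mul_assoc]
  congr 1
  rw [show N ⊓ centralizer ({c.z} : Set G) = c.H ⊓ N from inf_comm _ _,
    show c.CS ⊓ centralizer ({c.z} : Set G) = c.CS ⊓ c.H from rfl, c.card_CS_H, hN, c.card_CH.2,
    c.card_N_inf]
  norm_num

theorem exists_complement : ∃ I : Subgroup G,
    Cfsg.IsInternalDirectProduct (Subgroup.zpowers c.s) I c.CS ∧
      Nonempty (↥I ≃* Equiv.Perm (Fin 5)) := by
  obtain ⟨⟨e⟩, -⟩ := c.quotient_core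
  have hidx : c.SS.index = 120 := by
    have h := Subgroup.card_mul_index c.SS
    rw [c.card_SS, c.card_CS] at h
    omega
  obtain ⟨K, hK⟩ := Subgroup.exists_right_complement'_of_coprime (N := c.SS)
    (by rw [c.card_SS, hidx]; norm_num)
  have hmap : c.SS.map c.CS.subtype = Subgroup.zpowers c.s := by
    rw [SS, Subgroup.map_subgroupOf_eq_of_le c.zpowers_le_CS]
  refine ⟨K.map c.CS.subtype, ⟨c.zpowers_le_CS, Subgroup.map_subtype_le _, ?_, ?_, ?_⟩, ?_⟩
  · intro a ha b hb
    obtain ⟨i, rfl⟩ := Subgroup.mem_zpowers_iff.1 ha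
    exact ((c.mem_CS.1 (Subgroup.map_subtype_le _ hb)).symm.zpow_left i).eq
  · rw [← hmap, ← Subgroup.map_inf _ _ _ c.CS.subtype_injective, hK.disjoint.eq_bot,
      Subgroup.map_bot]
  · rw [← hmap, ← Subgroup.map_sup, hK.sup_eq_top, ← MonoidHom.range_eq_map,
      Subgroup.range_subtype]
  · exact ⟨(Subgroup.equivMapOfInjective K c.CS.subtype c.CS.subtype_injective).symm.trans
      (hK.symm.QuotientMulEquiv.symm.trans e)⟩

/-- The local structure at the subgroup of order seven. -/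
theorem conclusion :
    ¬ (49 ∣ Nat.card G) ∧
    (∃ I : Subgroup G,
      Cfsg.IsInternalDirectProduct (Subgroup.zpowers c.s) I
        (centralizer (Subgroup.zpowers c.s : Set G)) ∧
      Nonempty (↥I ≃* Equiv.Perm (Fin 5))) ∧
    Nat.card ↥(normalizer (Subgroup.zpowers c.s : Set G)) =
      3 * Nat.card ↥(centralizer (Subgroup.zpowers c.s : Set G)) ∧
    Nat.card ↥(normalizer (Subgroup.zpowers c.s : Set G)) = 2 ^ 3 * 3 ^ 2 * 5 * 7 := by
  have hC : centralizer (Subgroup.zpowers c.s : Set G) = c.CS := centralizer_zpowers c.s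
  rw [hC, c.card_normalizer_eq, c.card_CS]
  exact ⟨c.not_sq_dvd, c.exists_complement, rfl, by norm_num⟩

end Conf

end CfsgLib.J4Seven39
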