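import Cfsg.Agent.J4Seven39.Conf
import Cfsg.Agent.J4Type67.Pairing

/-!
# One class of subgroups of order seven meeting `C(z)`, and the fixed points on the two-core
-/

set_option autoImplicit false

namespace CfsgLib.J4Seven39

open Subgroup

namespace Conf

variable {G : Type*} [Group G] [Finite G] (c : Conf G)

omit [Finite G] in
theorem commute_conj_iff (g x y : G) :
    Commute (g * x * g⁻¹) (g * y * g⁻¹) ↔ Commute x y := by
  unfold Commute SemiconjBy
  rw [conj_mul, conj_mul]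
  exact ⟨fun e => mul_left_cancel (mul_right_cancel e), fun e => by rw [e]⟩

/-- The fixed-point bound for an involution on an elementary abelian group. -/
theorem card_le_sq {A : Subgroup G} (hA : ∀ a ∈ A, a * a = 1) {g : G}
    (hgA : ∀ a ∈ A, g * a * g⁻¹ ∈ A) (hg : g * g = 1) :
    Nat.card A ≤ Nat.card ↥(A ⊓ centralizer ({g} : Set G)) *
      Nat.card ↥(A ⊓ centralizer ({g} : Set G)) := by
  have hcomm : ∀ a ∈ A, ∀ b ∈ A, a * b = b * a := by
    intro a ha b hb
    have hinv : ∀ x ∈ A, x⁻¹ = x := fun x hx => inv_eq_of_mul_eq_one_right (hA x hx)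
    have := hinv _ (A.mul_mem ha hb)
    rw [mul_inv_rev, hinv a ha, hinv b hb] at this
    exact this.symm
  have hginv : g⁻¹ = g := inv_eq_of_mul_eq_one_right hg
  let φ : ↥A →* ↥A :=
    { toFun := fun a => ⟨(a : G) * (g * a * g⁻¹), A.mul_mem a.2 (hgA a a.2)⟩
      map_one' := Subtype.ext (by simp)
      map_mul' := fun a b => Subtype.ext (by
        show (a : G) * b * (g * ((a : G) * b) * g⁻¹) =
          (a : G) * (g * a * g⁻¹) * ((b : G) * (g * b * g⁻¹))
        have e : g * ((a : G) * b) * g⁻¹ = g * a * g⁻¹ * (g * b * g⁻¹) := by group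
        rw [e]
        calc (a : G) * b * (g * a * g⁻¹ * (g * b * g⁻¹))
            = (a : G) * ((b : G) * (g * a * g⁻¹)) * (g * b * g⁻¹) := by group
        _ = (a : G) * ((g * a * g⁻¹) * (b : G)) * (g * b * g⁻¹) := by
              rw [hcomm _ b.2 _ (hgA a a.2)]
        _ = (a : G) * (g * a * g⁻¹) * ((b : G) * (g * b * g⁻¹)) := by group) }
  have h := card_eq_map_mul φ (⊤ : Subgroup ↥A)
  rw [Subgroup.card_top, top_inf_eq] at h
  have hmem : ∀ a : G, a ∈ A → (Commute a g ↔ a * (g * a * g⁻¹) = 1) := by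
    intro a ha
    constructor
    · intro e
      rw [mul_inv_eq_iff_eq_mul.2 e.symm.eq, hA a ha]
    · intro e
      have h1 := eq_inv_of_mul_eq_one_right e
      rw [inv_eq_of_mul_eq_one_right (hA a ha)] at h1
      exact (mul_inv_eq_iff_eq_mul.1 h1).symm
  have hker : Nat.card φ.ker = Nat.card ↥(A ⊓ centralizer ({g} : Set G)) := by
    rw [card_eq_card_inf φ.ker (centralizer ({g} : Set G))]
    intro x
    rw [MonoidHom.mem_ker, mem_centralizer_singleton_iff]
    exact Iff.trans (by rw [Subtype.ext_iff]; exact Iff.rfl) (hmem x x.2).symm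
  have hle : Nat.card ((⊤ : Subgroup ↥A).map φ) ≤ Nat.card φ.ker := by
    refine Subgroup.card_le_of_le ?_
    rintro _ ⟨a, -, rfl⟩
    rw [MonoidHom.mem_ker]
    refine Subtype.ext ?_
    show (a : G) * (g * a * g⁻¹) * (g * ((a : G) * (g * a * g⁻¹)) * g⁻¹) = 1
    have e : g * ((a : G) * (g * a * g⁻¹)) * g⁻¹ = g * a * g⁻¹ * (a : G) := by
      calc g * ((a : G) * (g * a * g⁻¹)) * g⁻¹ = g * a * g⁻¹ * ((g * g) * a * (g * g)⁻¹) := by group
      _ = g * a * g⁻¹ * (a : G) := by rw [hg]; group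
    rw [e, hcomm _ (hgA a a.2) _ a.2]
    exact hA _ (A.mul_mem a.2 (hgA a a.2))
  rw [h, hker] 
  exact Nat.mul_le_mul_right _ (hker ▸ hle)

/-- `v` centralises no conjugate of `z`. -/
def Bad (v : G) : Prop := ∀ g : G, ¬ Commute (g * v * g⁻¹) c.z

theorem bad_not_isConj {v u : G} (hb : c.Bad v) (hu : Commute u v) : ¬ IsConj c.z u := by
  intro h
  obtain ⟨g, hg⟩ := isConj_iff.1 h.symm
  exact hb g (hg ▸ (commute_conj_iff g v u).2 hu.symm)

theorem bad_no_three {v q : G} (hb : c.Bad v) (hq : orderOf q = 3) (hv : Commute q v) : False := by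
  obtain ⟨g, hg⟩ := isConj_iff.1 (c.three q hq).symm
  have h1 : g * v * g⁻¹ ∈ centralizer ({c.p₀} : Set G) := by
    rw [mem_centralizer_singleton_iff, ← hg]
    exact ((commute_conj_iff g v q).2 hv.symm).eq
  exact hb g (mem_centralizer_singleton_iff.1 (c.hpC h1))

/-- In a bad centraliser an involution has a four group of fixed points, with a transvection. -/
theorem bad_four {v u : G} (hv : orderOf v = 7) (hb : c.Bad v) (hu : orderOf u = 2)
    (huv : Commute u v) {V K : Subgroup G} (hd : TData u V K) :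
    Nat.card ↥(V ⊓ centralizer ({v} : Set G)) = 4 ∧
      ∃ g : G, Commute g v ∧ Commute g u ∧
        ∀ x ∈ V ⊓ centralizer ({v} : Set G), x ≠ 1 → x ≠ u → g * x * g⁻¹ = x * u := by
  obtain ⟨-, hmod, ⟨g, hg2, hgu, hgv, hgV⟩, -⟩ := tdata_seven hd huv.symm hv
  have hVe := hd.2.2.2.1
  set A := V ⊓ centralizer ({v} : Set G) with hAdef
  have hA : ∀ a ∈ A, a * a = 1 := fun a ha => by
    have := hVe.2 a ha.1; rwa [pow_two] at this
  have hgA : ∀ a ∈ A, g * a * g⁻¹ ∈ A := by
    intro a ha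
    refine ⟨(mem_normalizer_iff.1 (hd.2.2.1 (mem_centralizer_singleton_iff.2 hgu.eq)) a).1 ha.1,
      mem_centralizer_singleton_iff.2 ?_⟩
    have hav : Commute a v := mem_centralizer_singleton_iff.1 ha.2
    exact ((hgv.mul_left hav).mul_left hgv.inv_left).eq
  have hgg : g * g = 1 := by rw [← pow_two, ← hg2, pow_orderOf_eq_one]
  have huA : u ∈ A := ⟨self_mem hd, mem_centralizer_singleton_iff.2 huv.eq⟩
  have hu1 : u ≠ 1 := fun e => by rw [e, orderOf_one] at hu; omega
  -- `g` is not conjugate to `z`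
  have hgt : ¬ IsConj c.z g := c.bad_not_isConj hb hgv
  obtain ⟨Vg, Kg, hdg⟩ := c.tcent g hg2 hgt
  obtain ⟨-, -, -, hD⟩ := tdata_seven hdg hgv.symm hv
  set B := A ⊓ centralizer ({g} : Set G) with hBdef
  have hB2 : IsPGroup 2 ↥B := by
    intro x
    exact ⟨1, Subtype.ext (by simpa [pow_two] using hA x x.2.1)⟩
  have hBle : B ≤ centralizer ({g} : Set G) ⊓ centralizer ({v} : Set G) :=
    fun x hx => ⟨hx.2, hx.1.2⟩
  have hle := hD B hB2 hBle
  have hB3 : Nat.card B ≤ 3 := by
    by_contra h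
    obtain ⟨w₁, hw₁, hne⟩ : ∃ w₁ ∈ B ⊓ Vg, w₁ ≠ 1 := by
      by_contra hall
      push Not at hall
      have : B ⊓ Vg = ⊥ := (Subgroup.eq_bot_iff_forall _).2 hall
      rw [this, Subgroup.card_bot] at hle
      omega
    have hw2 : orderOf w₁ = 2 := orderOf_eq_prime (by rw [pow_two]; exact hA _ hw₁.1.1) hne
    obtain ⟨V₁, K₁, hd₁⟩ := c.tcent w₁ hw2
      (c.bad_not_isConj hb (mem_centralizer_singleton_iff.1 hw₁.1.1.2))
    have e1 := c.V_eq hd hd₁ hw₁.1.1.1
    have e2 := c.V_eq hdg hd₁ hw₁.2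
    exact hgV (by rw [e1, ← e2]; exact self_mem hdg)
  have hsq := card_le_sq hA hgA hgg
  change Nat.card A ≤ Nat.card B * Nat.card B at hsq
  have hA9 : Nat.card A ≤ 9 := hsq.trans (Nat.mul_le_mul hB3 hB3)
  have hA4 : Nat.card A = 4 := by
    obtain ⟨m, -, hm⟩ := (Nat.dvd_prime_pow (by norm_num : Nat.Prime 2)).1
      (hd.2.2.2.2.1 ▸ Subgroup.card_dvd_of_le (inf_le_left : A ≤ V))
    rw [hm] at hmod hA9 ⊢
    have hm' : m < 4 := by
      by_contra hh
      have := Nat.pow_le_pow_right (show 0 < 2 by norm_num) (not_lt.1 hh)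
      omega
    interval_cases m <;> simp_all
  have hBset : (B : Set G) = {1, u} := by
    symm
    refine Set.eq_of_subset_of_ncard_le ?_ ?_
    · rintro x (rfl | rfl)
      · exact one_mem B
      · exact ⟨huA, mem_centralizer_singleton_iff.2 hgu.symm.eq⟩
    · rw [Set.ncard_pair hu1.symm, ← Nat.card_coe_set_eq]
      have hd4 : Nat.card B ∣ 4 := hA4 ▸ Subgroup.card_dvd_of_le inf_le_left
      have := Nat.le_of_dvd (by norm_num) hd4
      change Nat.card B ≤ 2
      interval_cases (Nat.card B) <;> simp_all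
  refine ⟨hA4, g, hgv, hgu, fun x hx hx1 hxu => ?_⟩
  have hxg : ¬ Commute x g := fun h => by
    have : x ∈ (B : Set G) := ⟨hx, mem_centralizer_singleton_iff.2 h.eq⟩
    rw [hBset] at this
    rcases this with e | e
    · exact hx1 e
    · exact hxu e
  have hy : x * (g * x * g⁻¹) ∈ (B : Set G) := by
    refine ⟨A.mul_mem hx (hgA x hx), mem_centralizer_singleton_iff.2 ?_⟩
    have hcomm : x * (g * x * g⁻¹) = (g * x * g⁻¹) * x := by
      have := hVe.1
      exact congrArg Subtype.val (mul_comm' (⟨x, hx.1⟩ : V) ⟨g * x * g⁻¹, (hgA x hx).1⟩)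
    have e : g * (x * (g * x * g⁻¹)) * g⁻¹ = x * (g * x * g⁻¹) := by
      calc g * (x * (g * x * g⁻¹)) * g⁻¹ = g * x * g⁻¹ * ((g * g) * x * (g * g)⁻¹) := by group
      _ = x * (g * x * g⁻¹) := by rw [hgg, hcomm]; group
    exact (mul_inv_eq_iff_eq_mul.1 e).symm
  rw [hBset] at hy
  rcases hy with e | e
  · exfalso
    have h1 := eq_inv_of_mul_eq_one_right e
    rw [inv_eq_of_mul_eq_one_right (hA x hx)] at h1
    exact hxg (mul_inv_eq_iff_eq_mul.1 h1).symm
  · calc g * x * g⁻¹ = x * (x * (g * x * g⁻¹)) := by rw [← mul_assoc, hA x hx, one_mul]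
    _ = x * u := by rw [e]

include c in
/-- Every element of order seven centralising an involution is conjugate into `C(z)`. -/
theorem seven_conj {w v : G} (hw : orderOf w = 2) (hv : orderOf v = 7) (hwv : Commute w v) :
    ∃ g : G, Commute (g * v * g⁻¹) c.z := by
  by_contra hno
  push Not at hno
  have hb : c.Bad v := hno
  obtain ⟨V, K, hd⟩ := c.tcent w hw (c.bad_not_isConj hb hwv)
  obtain ⟨hA4, g, hgv, hgw, hg⟩ := c.bad_four hv hb hw hwv hd
  set A := V ⊓ centralizer ({v} : Set G) with hAdef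
  have hwA : w ∈ A := ⟨self_mem hd, mem_centralizer_singleton_iff.2 hwv.eq⟩
  have hw1 : w ≠ 1 := fun e => by rw [e, orderOf_one] at hw; omega
  obtain ⟨a, haA, ha⟩ : ∃ a, a ∈ (A : Set G) ∧ a ∉ ({1, w} : Set G) := by
    refine Set.exists_mem_notMem_of_ncard_lt_ncard (t := (A : Set G)) (s := ({1, w} : Set G)) ?_
    rw [Set.ncard_pair hw1.symm, ← Nat.card_coe_set_eq]
    change 2 < Nat.card A
    omega
  simp only [Set.mem_insert_iff, Set.mem_singleton_iff, not_or] at ha
  obtain ⟨ha1, haw⟩ := ha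
  have hVe := hd.2.2.2.1
  have haa : a * a = 1 := by have := hVe.2 a haA.1; rwa [pow_two] at this
  have hww : w * w = 1 := by rw [← pow_two, ← hw, pow_orderOf_eq_one]
  have hwa : w * a = a * w := by
    have := hVe.1
    exact congrArg Subtype.val (mul_comm' (⟨w, hwA.1⟩ : V) ⟨a, haA.1⟩)
  have hav : Commute a v := mem_centralizer_singleton_iff.1 haA.2
  have ha2 : orderOf a = 2 := orderOf_eq_prime (by rw [pow_two, haa]) ha1
  obtain ⟨Va, Ka, hda⟩ := c.tcent a ha2 (c.bad_not_isConj hb hav)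
  obtain ⟨-, g', hg'v, hg'a, hg'⟩ := c.bad_four hv hb ha2 hav hda
  have eV : V = Va := c.V_eq hd hda haA.1
  have h1 : g * a * g⁻¹ = a * w := hg a haA ha1 haw
  have h2 : g' * w * g'⁻¹ = w * a :=
    hg' w ⟨eV ▸ hwA.1, hwA.2⟩ hw1 (fun e => haw e.symm)
  set h := g * g' with hh
  have hhv : Commute h v := hgv.mul_left hg'v
  have e1 : h * w * h⁻¹ = a := by
    calc h * w * h⁻¹ = g * (g' * w * g'⁻¹) * g⁻¹ := by rw [hh]; group
    _ = g * w * g⁻¹ * (g * a * g⁻¹) := by rw [h2]; group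
    _ = w * (a * w) := by rw [h1, mul_inv_eq_iff_eq_mul.2 hgw.eq]
    _ = a := by rw [← mul_assoc, hwa, mul_assoc, hww, mul_one]
  have e2 : h * a * h⁻¹ = a * w := by
    calc h * a * h⁻¹ = g * (g' * a * g'⁻¹) * g⁻¹ := by rw [hh]; group
    _ = a * w := by rw [mul_inv_eq_iff_eq_mul.2 hg'a.eq, h1]
  have e3 : h * (a * w) * h⁻¹ = w := by
    calc h * (a * w) * h⁻¹ = h * a * h⁻¹ * (h * w * h⁻¹) := by group
    _ = a * w * a := by rw [e1, e2]
    _ = w := by rw [← hwa, mul_assoc, haa, mul_one]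
  have hne_aw : a * w ≠ w := fun e => ha1 (mul_eq_right.1 e)
  have key : ∀ n : ℕ, h ^ n * w * (h ^ n)⁻¹ =
      if n % 3 = 0 then w else if n % 3 = 1 then a else a * w := by
    intro n
    induction n with
    | zero => simp
    | succ n ih =>
      have e : h ^ (n + 1) * w * (h ^ (n + 1))⁻¹ = h * (h ^ n * w * (h ^ n)⁻¹) * h⁻¹ := by
        rw [pow_succ']; group
      rw [e, ih]
      have h3 : n % 3 = 0 ∨ n % 3 = 1 ∨ n % 3 = 2 := by omega
      rcases h3 with h3 | h3 | h3
      · rw [if_pos h3, e1, if_neg (by omega), if_pos (by omega)]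
      · rw [if_neg (by omega), if_pos h3, e2, if_neg (by omega), if_neg (by omega)]
      · rw [if_neg (by omega), if_neg (by omega), e3, if_pos (by omega)]
  have hn := key (orderOf h)
  rw [pow_orderOf_eq_one, one_mul, inv_one, mul_one] at hn
  have h30 : orderOf h % 3 = 0 := by
    by_contra h0
    rw [if_neg h0] at hn
    split_ifs at hn with h1'
    · exact haw hn.symm
    · exact hne_aw hn.symm
  have h3dvd : 3 ∣ orderOf h := Nat.dvd_of_mod_eq_zero h30
  refine c.bad_no_three hb (q := h ^ (orderOf h / 3)) ?_ (hhv.pow_left _)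
  rw [orderOf_pow' _ (Nat.div_ne_zero_iff.2 ⟨by norm_num, Nat.le_of_dvd (orderOf_pos h) h3dvd⟩),
    Nat.gcd_eq_right (Nat.div_dvd_of_dvd h3dvd), Nat.div_div_self h3dvd (orderOf_pos h).ne']

/-- Some involution not conjugate to `z` commutes with `s`. -/
theorem exists_t_commute : ∃ w : G, orderOf w = 2 ∧ ¬ IsConj c.z w ∧ Commute w c.s := by
  have : Fact (Nat.Prime 7) := ⟨by norm_num⟩
  obtain ⟨t, ht, htn⟩ := c.tex
  obtain ⟨V, K, hd⟩ := c.tcent t ht htn
  obtain ⟨-, hK, -, -, -, -, -, ⟨e⟩⟩ := hd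
  obtain ⟨b, hb⟩ := exists_prime_orderOf_dvd_card' (G := ↥K) 7
    (by rw [Nat.card_congr e.toEquiv, card_mulAut_M22]; norm_num)
  have hbt : Commute t (b : G) :=
    (mem_centralizer_singleton_iff.1 (hK b.2) : Commute (b : G) t).symm
  have hbo : orderOf (b : G) = 7 := (Subgroup.orderOf_coe b).trans hb
  obtain ⟨g, hg⟩ := c.seven_conj ht hbo hbt
  obtain ⟨h, -, hmem⟩ := c.conj_into_S hg ((orderOf_mul_conj _ _).trans hbo)
  have hconj : h * (g * (b : G) * g⁻¹) * h⁻¹ = h * g * (b : G) * (h * g)⁻¹ := by group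
  rw [hconj] at hmem
  have hC := c.centralizer_eq ((orderOf_mul_conj _ _).trans hbo) hmem
  refine ⟨h * g * t * (h * g)⁻¹, (orderOf_mul_conj _ _).trans ht,
    fun hc => htn (hc.trans (isConj_iff.2 ⟨h * g, rfl⟩).symm), ?_⟩
  have : h * g * t * (h * g)⁻¹ ∈ centralizer ({h * g * (b : G) * (h * g)⁻¹} : Set G) :=
    mem_centralizer_singleton_iff.2 ((commute_conj_iff _ _ _).2 hbt).eq
  rw [hC] at this
  exact mem_centralizer_singleton_iff.1 this

/-- The fixed points of `s` on `E` are the powers of `z`. -/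
theorem card_E0 : Nat.card ↥(c.E ⊓ centralizer ({c.s} : Set G)) = 2 := by
  rcases c.card_CE with h | hcard
  · exact h
  exfalso
  have : Fact (Nat.Prime 7) := ⟨by norm_num⟩
  set B := c.E ⊓ centralizer ({c.s} : Set G) with hBdef
  have hzH : ∀ x ∈ c.E, Commute x c.z := by
    intro x hx
    exact mem_centralizer_singleton_iff.1 (c.hNH (c.hEN hx))
  have hzB : c.z ∈ B := ⟨c.z_mem_E, mem_centralizer_singleton_iff.2 c.hsz.symm.eq⟩
  -- the centre of `B`
  have hcenB : ∀ x ∈ B, (∀ y ∈ B, Commute x y) → x = 1 ∨ x = c.z := by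
    intro x hx hall
    refine c.hcenter x hx.1 fun y hy => ?_
    set φ := x * y * x⁻¹ * y⁻¹ with hφ
    have hφz : φ = 1 ∨ φ = c.z := c.hcomm x hx.1 y hy
    rcases hφz with h1 | h1
    · exact mul_inv_eq_iff_eq_mul.1 (mul_inv_eq_one.1 h1)
    exfalso
    have hxs : Commute x c.s := mem_centralizer_singleton_iff.1 hx.2
    have hzy : Commute c.z y := (hzH y hy).symm
    -- the norm of `y`
    set n := (y * c.s) ^ 7 with hn
    have hconj : x * (y * c.s) * x⁻¹ = c.z * (y * c.s) := by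
      have e : x * y * x⁻¹ = c.z * y := mul_inv_eq_iff_eq_mul.1 (hφ ▸ h1)
      calc x * (y * c.s) * x⁻¹ = x * y * x⁻¹ * (x * c.s * x⁻¹) := by group
      _ = c.z * y * c.s := by rw [e, mul_inv_eq_iff_eq_mul.2 hxs.eq]
      _ = c.z * (y * c.s) := mul_assoc _ _ _
    have hxn : x * n * x⁻¹ = c.z * n := by
      rw [hn, ← conj_pow, hconj, (hzy.mul_right c.hsz.symm).mul_pow]
      rw [show c.z ^ 7 = c.z by rw [pow_succ, show 6 = 2 * 3 by norm_num, pow_mul, pow_two, c.zz,
        one_pow, one_mul]]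
    obtain ⟨f, hf⟩ : ∃ f : ↥(c.E ⊔ Subgroup.zpowers c.s), (f : G) = y * c.s :=
      ⟨⟨y * c.s, Subgroup.mul_mem _ (Subgroup.mem_sup_left hy)
        (Subgroup.mem_sup_right (Subgroup.mem_zpowers _))⟩, rfl⟩
    have hsE : c.s ∈ normalizer (c.E : Set G) := c.hEn c.s_mem_H
    have hnE : n ∈ c.E := by
      have hseq : ∀ k : ℕ, (y * c.s) ^ k * (c.s ^ k)⁻¹ ∈ c.E := by
        intro k
        induction k with
        | zero => simp [c.E.one_mem]
        | succ k ih =>
          have e : (y * c.s) ^ (k + 1) * (c.s ^ (k + 1))⁻¹ =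
              (y * c.s) ^ k * (c.s ^ k)⁻¹ * (c.s ^ k * y * (c.s ^ k)⁻¹) := by
            rw [pow_succ, pow_succ]; group
          rw [e]
          exact c.E.mul_mem ih ((mem_normalizer_iff.1 (pow_mem hsE k) y).1 hy)
      have := hseq 7
      rwa [← hn, show c.s ^ 7 = 1 by rw [← c.hs, pow_orderOf_eq_one], inv_one, mul_one] at this
    have hsn : Commute c.s n := by
      have e1 : c.s * n * c.s⁻¹ = y⁻¹ * n * y := by
        have hc : Commute (y * c.s) n := (Commute.refl _).pow_right 7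
        calc c.s * n * c.s⁻¹ = y⁻¹ * ((y * c.s) * n) * c.s⁻¹ := by group
        _ = y⁻¹ * (n * (y * c.s)) * c.s⁻¹ := by rw [hc.eq]
        _ = y⁻¹ * n * y := by group
      rcases c.hcomm n⁻¹ (c.E.inv_mem hnE) y⁻¹ (c.E.inv_mem hy) with h2 | h2
      · have e2 : n⁻¹ * (y⁻¹ * n * y) = 1 := by rw [← h2]; group
        have : y⁻¹ * n * y = n := (inv_mul_eq_one.1 e2).symm
        exact mul_inv_eq_iff_eq_mul.1 (e1.trans this)
      · exfalso
        have e2 : n⁻¹ * (y⁻¹ * n * y) = c.z := by rw [← h2]; group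
        have e3 : n⁻¹ * c.s * n = c.z * c.s := by
          calc n⁻¹ * c.s * n = n⁻¹ * (c.s * n * c.s⁻¹) * c.s := by group
          _ = c.z * c.s := by rw [e1, e2]
        have h7 : orderOf (c.z * c.s) = 7 := by
          rw [← e3]
          have := orderOf_mul_conj n⁻¹ c.s
          rw [inv_inv, c.hs] at this
          exact this
        have h14 : orderOf (c.z * c.s) = 14 := by
          rw [c.hsz.symm.orderOf_mul_eq_mul_orderOf_of_coprime (by rw [c.hz, c.hs]; norm_num),
            c.hz, c.hs]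
        omega
    have hxn' : Commute x n := hall n ⟨hnE, mem_centralizer_singleton_iff.2 hsn.symm.eq⟩
    rw [mul_inv_eq_iff_eq_mul.2 hxn'.eq] at hxn
    exact c.z_ne_one (mul_eq_right.1 hxn.symm)
  -- abelian subgroups are small
  have habel : ∀ A : Subgroup G, A ≤ B → (∀ a ∈ A, ∀ b ∈ A, Commute a b) →
      Nat.card A ≤ 16 := by
    intro A hAB hcom
    have hp := CfsgLib.J4Type67.pairing_bound (z := c.z) (U := A) (T := B)
      (fun u hu t ht => c.hcomm u (hAB hu).1 t ht.1)
    have h1 : Nat.card A ≤ Nat.card ↥(B ⊓ centralizer (A : Set G)) := by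
      refine Subgroup.card_le_of_le fun a ha => ⟨hAB ha, mem_centralizer_iff.2 fun b hb => ?_⟩
      exact (hcom b hb a ha).eq
    have h2 : Nat.card ↥(A ⊓ centralizer (B : Set G)) ≤ 2 := by
      refine (Subgroup.card_le_of_le (K := Subgroup.zpowers c.z) ?_).trans
        (by rw [Nat.card_zpowers, c.hz])
      intro a ha
      rcases hcenB a (hAB ha.1) fun y hy => (mem_centralizer_iff.1 ha.2 y hy).symm with e | e
      · rw [e]; exact one_mem _
      · rw [e]; exact Subgroup.mem_zpowers _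
    rw [hcard] at hp
    by_contra h17
    push Not at h17
    nlinarith
  -- a noncentral involution
  have hBz : ∀ x ∈ B, Commute x c.z := fun x hx => hzH x hx.1
  have horbit : ∀ x ∈ B, x ≠ 1 → 64 ≤ Nat.card ↥(B ⊓ centralizer ({x} : Set G)) := by
    intro x hx _
    have h := card_eq_card_inf_mul_orbit B x
    have hsub : {y | ∃ l ∈ B, l * x * l⁻¹ = y} ⊆ ({x, c.z * x} : Set G) := by
      rintro y ⟨l, hl, rfl⟩
      rcases c.hcomm l hl.1 x hx.1 with e | e
      · exact Or.inl (mul_inv_eq_one.1 e)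
      · exact Or.inr (mul_inv_eq_iff_eq_mul.1 e)
    have h2 : {y | ∃ l ∈ B, l * x * l⁻¹ = y}.ncard ≤ 2 := by
      refine (Set.ncard_le_ncard hsub).trans ?_
      exact (Set.ncard_insert_le _ _).trans (by rw [Set.ncard_singleton])
    rw [hcard] at h
    have := Nat.mul_le_mul_left (Nat.card ↥(B ⊓ centralizer ({x} : Set G))) h2
    omega
  have hsq : ∀ x ∈ B, x * x = 1 ∨ x * x = c.z := by
    intro x hx
    refine c.hcenter _ (c.E.mul_mem hx.1 hx.1) fun b hb => ?_
    rcases c.hcomm x hx.1 b hb with e | e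
    · have h : Commute x b := mul_inv_eq_iff_eq_mul.1 (mul_inv_eq_one.1 e)
      exact h.mul_left h
    · have hxz : Commute x c.z := hBz x hx
      have e' : x * b = c.z * b * x :=
        mul_inv_eq_iff_eq_mul.1 (mul_inv_eq_iff_eq_mul.1 e)
      show x * x * b = b * (x * x)
      calc x * x * b = x * (c.z * b * x) := by rw [mul_assoc, e']
      _ = c.z * (x * b) * x := by rw [← mul_assoc, ← mul_assoc, hxz.eq, mul_assoc c.z x b]
      _ = c.z * c.z * b * (x * x) := by rw [e']; group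
      _ = b * (x * x) := by rw [c.zz, one_mul]
  obtain ⟨e, heB, he2, hez⟩ : ∃ e ∈ B, orderOf e = 2 ∧ e ≠ c.z := by
    obtain ⟨y, hyB, hyy⟩ : ∃ y ∈ B, y * y = c.z := by
      by_contra hne
      push Not at hne
      have hall : ∀ a ∈ B, a * a = 1 := fun a ha => (hsq a ha).resolve_right (hne a ha)
      have hcom : ∀ a ∈ B, ∀ b ∈ B, Commute a b := by
        intro a ha b hb
        have hinv : ∀ x ∈ B, x⁻¹ = x := fun x hx => inv_eq_of_mul_eq_one_right (hall x hx)
        have := hinv _ (B.mul_mem ha hb)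
        rw [mul_inv_rev, hinv a ha, hinv b hb] at this
        exact this.symm
      have := habel B le_rfl hcom
      omega
    have hy1 : y ≠ 1 := fun e => c.z_ne_one (by rw [← hyy, e, one_mul])
    have hyz : y * c.z = c.z * y := (hBz y hyB).eq
    obtain ⟨y', hy'mem, hy'⟩ : ∃ y', y' ∈ ((B ⊓ centralizer ({y} : Set G) : Subgroup G) : Set G) ∧
        y' ∉ ({1, c.z, y, y * c.z} : Set G) := by
      refine Set.exists_mem_notMem_of_ncard_lt_ncard
        (t := ((B ⊓ centralizer ({y} : Set G) : Subgroup G) : Set G))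
        (s := ({1, c.z, y, y * c.z} : Set G)) ?_
      have h4 : ({1, c.z, y, y * c.z} : Set G).ncard ≤ 4 := by
        refine (Set.ncard_insert_le _ _).trans (Nat.add_le_add_right ((Set.ncard_insert_le _ _).trans
          (Nat.add_le_add_right ((Set.ncard_insert_le _ _).trans
            (by rw [Set.ncard_singleton])) 1)) 1)
      rw [← Nat.card_coe_set_eq ((B ⊓ centralizer ({y} : Set G) : Subgroup G) : Set G)]
      have := horbit y hyB hy1
      change _ < Nat.card ↥(B ⊓ centralizer ({y} : Set G))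
      omega
    simp only [Set.mem_insert_iff, Set.mem_singleton_iff, not_or] at hy'
    have hc : Commute y' y := mem_centralizer_singleton_iff.1 hy'mem.2
    rcases hsq y' hy'mem.1 with h | h
    · exact ⟨y', hy'mem.1, orderOf_eq_prime (by rw [pow_two, h]) hy'.1, hy'.2.1⟩
    · refine ⟨y' * y, B.mul_mem hy'mem.1 hyB, orderOf_eq_prime ?_ ?_, ?_⟩
      · rw [pow_two, hc.symm.mul_mul_mul_comm, h, hyy, c.zz]
      · intro h1
        apply hy'.2.2.2
        rw [eq_inv_of_mul_eq_one_left h1, ← hyy, ← mul_assoc]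
        refine inv_eq_of_mul_eq_one_right ?_
        rw [show y * (y * y * y) = y * y * (y * y) by group, hyy, c.zz]
      · intro h1
        exact hy'.2.2.1 (mul_right_cancel (h1.trans hyy.symm))
  have he1 : e ≠ 1 := fun h => by rw [h, orderOf_one] at he2; omega
  set D := B ⊓ centralizer ({e} : Set G) with hDdef
  have hD64 : 64 ≤ Nat.card D := horbit e heB he1
  have hDp : IsPGroup 2 ↥D := by
    refine IsPGroup.to_le ?_ (inf_le_left.trans inf_le_left : D ≤ c.E)
    exact IsPGroup.of_card c.hEcard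
  have hes : Commute e c.s := mem_centralizer_singleton_iff.1 heB.2
  by_cases hez' : IsConj c.z e
  · obtain ⟨g, hge, hgs⟩ := c.exists_conj_z hez' hes
    set D' := D.map (MulAut.conj g).toMonoidHom with hD'
    have hD'le : D' ≤ c.H ⊓ centralizer ({c.s} : Set G) := by
      rintro _ ⟨x, hx, rfl⟩
      simp only [MulEquiv.coe_toMonoidHom, MulAut.conj_apply]
      refine ⟨c.mem_H.2 ?_, mem_centralizer_singleton_iff.2
        ((hgs x).2 (mem_centralizer_singleton_iff.1 hx.1.2)).eq⟩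
      rw [← hge]
      exact (commute_conj_iff g x e).2 (mem_centralizer_singleton_iff.1 hx.2)
    have hle := c.two_group_H (hDp.map _) hD'le
    have hc1 : Nat.card D' = Nat.card D :=
      Subgroup.card_map_of_injective (MulAut.conj g).injective
    set D₁ := D ⊓ c.E.comap (MulAut.conj g).toMonoidHom with hD₁
    have hc2 : Nat.card ↥(D' ⊓ c.E) = Nat.card D₁ := by
      rw [← Subgroup.card_map_of_injective (f := (MulAut.conj g).toMonoidHom)
        (MulAut.conj g).injective (K := D₁)]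
      congr 2
      ext x
      simp only [hD', hD₁, Subgroup.mem_inf, Subgroup.mem_map, Subgroup.mem_comap]
      constructor
      · rintro ⟨⟨a, ha, rfl⟩, hx⟩; exact ⟨a, ⟨ha, hx⟩, rfl⟩
      · rintro ⟨a, ⟨ha, hx⟩, rfl⟩; exact ⟨⟨a, ha, rfl⟩, hx⟩
    rw [hc1, hc2] at hle
    have habD : ∀ a ∈ D₁, ∀ b ∈ D₁, Commute a b := by
      intro a ha b hb
      rcases c.hcomm a ha.1.1.1 b hb.1.1.1 with h | h
      · exact mul_inv_eq_iff_eq_mul.1 (mul_inv_eq_one.1 h)
      · exfalso
        have ha2 : g * a * g⁻¹ ∈ c.E := by simpa using ha.2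
        have hb2 : g * b * g⁻¹ ∈ c.E := by simpa using hb.2
        rcases c.hcomm _ ha2 _ hb2 with h' | h'
        · have : g * c.z * g⁻¹ = 1 := by rw [← h, ← h']; group
          exact c.z_ne_one (conj_eq_one_iff.1 this)
        · have : g * c.z * g⁻¹ = g * e * g⁻¹ := by
            calc g * c.z * g⁻¹ = g * (a * b * a⁻¹ * b⁻¹) * g⁻¹ := by rw [h]
            _ = g * a * g⁻¹ * (g * b * g⁻¹) * (g * a * g⁻¹)⁻¹ * (g * b * g⁻¹)⁻¹ := by group
            _ = c.z := h'
            _ = g * e * g⁻¹ := hge.symm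
          exact hez (mul_left_cancel (mul_right_cancel this)).symm
    have := habel D₁ (inf_le_left.trans inf_le_left) habD
    omega
  · obtain ⟨V, K, hd⟩ := c.tcent e he2 hez'
    obtain ⟨-, -, -, hD⟩ := tdata_seven hd hes.symm c.hs
    have hle := hD D hDp fun x hx => ⟨hx.2, hx.1.2⟩
    have hVe := hd.2.2.2.1
    have habD : ∀ a ∈ D ⊓ V, ∀ b ∈ D ⊓ V, Commute a b := fun a ha b hb => by
      have := hVe.1
      exact congrArg Subtype.val (mul_comm' (⟨a, ha.2⟩ : V) ⟨b, hb.2⟩)
    have := habel (D ⊓ V) (inf_le_left.trans inf_le_left) habD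
    omega

end Conf

end CfsgLib.J4Seven39
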