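import Cfsg.Agent.J4Seven39.Basic

/-!
# Coprime lifting and fixed points
-/

set_option autoImplicit false

namespace CfsgLib.J4Seven39

open Subgroup

variable {L : Type*} [Group L]

/-- Order of a subgroup through a homomorphism. -/
theorem card_eq_map_mul {Q : Type*} [Group Q] (f : L →* Q) (K : Subgroup L) :
    Nat.card K = Nat.card (K.map f) * Nat.card ↥(K ⊓ f.ker) := by
  have h := Subgroup.card_mul_index (f.comp K.subtype).ker
  rw [Subgroup.index_ker, MonoidHom.range_eq_map, ← Subgroup.map_map, ← MonoidHom.range_eq_map,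
    Subgroup.range_subtype] at h
  have e : Nat.card (f.comp K.subtype).ker = Nat.card ↥(K ⊓ f.ker) := by
    rw [← MonoidHom.comap_ker, inf_comm, ← Subgroup.card_map_of_injective (Subgroup.subtype_injective K),
      Subgroup.map_comap_eq, Subgroup.range_subtype, inf_comm]
  rw [← h, e, mul_comm]

theorem mem_normalizer_zpowers [Finite L] {s x : L}
    (h : x * s * x⁻¹ ∈ Subgroup.zpowers s) : x ∈ normalizer (Subgroup.zpowers s : Set L) := by
  have hmap : (Subgroup.zpowers s).map (MulAut.conj x).toMonoidHom = Subgroup.zpowers s := by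
    refine Subgroup.eq_of_le_of_card_ge ?_ ?_
    · rw [MonoidHom.map_zpowers]
      exact Subgroup.zpowers_le.2 (by simpa using h)
    · exact (Nat.card_congr (Subgroup.equivMapOfInjective _ _
        (MulAut.conj x).injective).toEquiv).le
  rw [mem_normalizer_iff]
  intro w
  constructor
  · intro hw
    exact hmap ▸ ⟨w, hw, rfl⟩
  · intro hw
    rw [← hmap] at hw
    obtain ⟨v, hv, he⟩ := hw
    simp only [MulEquiv.coe_toMonoidHom, MulAut.conj_apply] at he
    rwa [← mul_left_cancel (mul_right_cancel he)]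

theorem conj_mem_zpowers {s x : L} (hx : x ∈ normalizer (Subgroup.zpowers s : Set L)) :
    x * s * x⁻¹ ∈ Subgroup.zpowers s :=
  (mem_normalizer_iff.1 hx s).1 (Subgroup.mem_zpowers s)

theorem centralizer_zpowers (s : L) :
    centralizer (Subgroup.zpowers s : Set L) = centralizer ({s} : Set L) := by
  rw [Subgroup.zpowers_eq_closure, Subgroup.centralizer_closure]

variable [Finite L] {Q : Type*} [Group Q] {r : ℕ} [Fact r.Prime]

theorem orderOf_map_eq (f : L →* Q) {s : L} (hs : orderOf s = r) (hk : ¬ r ∣ Nat.card f.ker) :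
    orderOf (f s) = r := by
  have h := hs ▸ orderOf_map_dvd f s
  rcases (Nat.dvd_prime (Fact.out : r.Prime)).1 h with e | e
  · exact absurd (hs ▸ Subgroup.orderOf_dvd_natCard _ (orderOf_eq_one_iff.1 e : s ∈ f.ker)) hk
  · exact e

/-- Coprime lifting of the normalizer of a subgroup of prime order. -/
theorem exists_normalizer_lift (f : L →* Q) (hf : Function.Surjective f) {s : L}
    (hs : orderOf s = r) (hk : ¬ r ∣ Nat.card f.ker) {q : Q}
    (hq : q ∈ normalizer (Subgroup.zpowers (f s) : Set Q)) :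
    ∃ y ∈ normalizer (Subgroup.zpowers s : Set L), f y = q := by
  obtain ⟨x, rfl⟩ := hf q
  set M := (Subgroup.zpowers (f s)).comap f with hM
  have hsM : s ∈ M := Subgroup.mem_zpowers (f s)
  have hxM : x * s * x⁻¹ ∈ M := by
    show f (x * s * x⁻¹) ∈ Subgroup.zpowers (f s)
    rw [map_mul, map_mul, map_inv]
    exact conj_mem_zpowers hq
  have hMcard : Nat.card M = r * Nat.card f.ker := by
    rw [card_eq_map_mul f M, hM, Subgroup.map_comap_eq_self_of_surjective hf, Nat.card_zpowers,
      orderOf_map_eq f hs hk, ← hM]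
    congr 2
    have hle : f.ker ≤ M := by
      intro w hw
      show f w ∈ Subgroup.zpowers (f s)
      rw [MonoidHom.mem_ker.1 hw]
      exact Subgroup.one_mem _
    rw [inf_eq_right.2 hle]
  have hsyl : ∀ u : M, orderOf u = r →
      ∃ P : Sylow r M, (P : Subgroup M) = Subgroup.zpowers u := by
    intro u hu
    refine ⟨Sylow.ofCard (Subgroup.zpowers u) ?_, rfl⟩
    have hr := (Fact.out : r.Prime)
    rw [Nat.card_zpowers, hu, hMcard, Nat.factorization_mul hr.ne_zero Nat.card_pos.ne',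
      Finsupp.coe_add, Pi.add_apply, hr.factorization_self,
      Nat.factorization_eq_zero_of_not_dvd hk, add_zero, pow_one]
  obtain ⟨P, hP⟩ := hsyl ⟨x * s * x⁻¹, hxM⟩
    (by rw [← Subgroup.orderOf_coe, orderOf_mul_conj, hs])
  obtain ⟨P', hP'⟩ := hsyl ⟨s, hsM⟩ (by rw [← Subgroup.orderOf_coe, hs])
  obtain ⟨m, hm⟩ := MulAction.exists_smul_eq M P P'
  have hmem : m * (⟨x * s * x⁻¹, hxM⟩ : M) * m⁻¹ ∈ Subgroup.zpowers (⟨s, hsM⟩ : M) := by
    rw [← hP', ← hm]
    simp only [Sylow.coe_subgroup_smul, Subgroup.mem_smul_pointwise_iff_exists]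
    exact ⟨_, hP ▸ Subgroup.mem_zpowers _, rfl⟩
  obtain ⟨i, hi⟩ := Subgroup.mem_zpowers_iff.1 hmem
  have hi' : ((m : L) * x) * s * ((m : L) * x)⁻¹ = s ^ i := by
    have := congrArg Subtype.val hi
    simp only [SubgroupClass.coe_zpow, Subgroup.coe_mul, Subgroup.coe_inv] at this
    rw [this]; group
  obtain ⟨j, hj⟩ := Subgroup.mem_zpowers_iff.1 (show f (m : L) ∈ Subgroup.zpowers (f s) from m.2)
  refine ⟨s ^ (-j) * ((m : L) * x), mul_mem ?_ ?_, ?_⟩
  · exact zpow_mem (mem_normalizer_zpowers (by simp)) _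
  · exact mem_normalizer_zpowers (hi' ▸ Subgroup.mem_zpowers_iff.2 ⟨i, rfl⟩)
  · rw [map_mul, map_mul, map_zpow, ← hj, ← mul_assoc, ← zpow_add, neg_add_cancel, zpow_zero,
      one_mul]

theorem map_normalizer_zpowers (f : L →* Q) (hf : Function.Surjective f) {s : L}
    (hs : orderOf s = r) (hk : ¬ r ∣ Nat.card f.ker) :
    (normalizer (Subgroup.zpowers s : Set L)).map f =
      normalizer (Subgroup.zpowers (f s) : Set Q) := by
  have hQ : Finite Q := Finite.of_surjective f hf
  refine le_antisymm ?_ fun q hq => ?_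
  · rintro _ ⟨x, hx, rfl⟩
    refine mem_normalizer_zpowers ?_
    rw [← map_inv, ← map_mul, ← map_mul, ← MonoidHom.map_zpowers]
    exact ⟨_, conj_mem_zpowers hx, rfl⟩
  · exact exists_normalizer_lift f hf hs hk hq

theorem map_centralizer (f : L →* Q) (hf : Function.Surjective f) {s : L}
    (hs : orderOf s = r) (hk : ¬ r ∣ Nat.card f.ker) :
    (centralizer ({s} : Set L)).map f = centralizer ({f s} : Set Q) := by
  have hQ : Finite Q := Finite.of_surjective f hf
  refine le_antisymm ?_ fun q hq => ?_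
  · rintro _ ⟨x, hx, rfl⟩
    rw [mem_centralizer_singleton_iff, ← map_mul, ← map_mul]
    exact congrArg f (mem_centralizer_singleton_iff.1 hx)
  · have hqc : q * f s * q⁻¹ = f s :=
      mul_inv_eq_iff_eq_mul.2 (mem_centralizer_singleton_iff.1 hq)
    obtain ⟨y, hy, rfl⟩ := exists_normalizer_lift f hf hs hk
      (mem_normalizer_zpowers (s := f s) (by rw [hqc]; exact Subgroup.mem_zpowers _))
    refine ⟨y, ?_, rfl⟩
    obtain ⟨i, hi⟩ := Subgroup.mem_zpowers_iff.1 (conj_mem_zpowers hy)
    refine mem_centralizer_singleton_iff.2 (mul_inv_eq_iff_eq_mul.1 ?_)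
    rw [← hi]
    rw [← map_inv, ← map_mul, ← map_mul, ← hi, map_zpow] at hqc
    have h1 : (f s) ^ (i - 1) = 1 := by rw [zpow_sub_one, hqc, mul_inv_cancel]
    have h2 := orderOf_dvd_iff_zpow_eq_one.2 h1
    rw [orderOf_map_eq f hs hk, ← hs] at h2
    have h3 := orderOf_dvd_iff_zpow_eq_one.1 h2
    rw [zpow_sub_one, mul_inv_eq_one] at h3
    exact h3

/-- Transport of a cardinality from a subgroup. -/
theorem card_eq_card_inf {H : Subgroup L} (K : Subgroup H) (K' : Subgroup L)
    (h : ∀ x : H, x ∈ K ↔ (x : L) ∈ K') : Nat.card K = Nat.card ↥(H ⊓ K') := by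
  rw [← Subgroup.card_map_of_injective (Subgroup.subtype_injective H) (K := K)]
  congr 2
  ext x
  constructor
  · rintro ⟨y, hy, rfl⟩; exact ⟨y.2, (h y).1 hy⟩
  · rintro ⟨hx, hx'⟩; exact ⟨⟨x, hx⟩, (h ⟨x, hx⟩).2 hx', rfl⟩

/-- Fixed points of an element of prime order on a subgroup it normalises. -/
theorem card_inf_centralizer_modEq (K : Subgroup L) {x : L}
    (hx : x ∈ normalizer (K : Set L)) (ho : orderOf x = r) :
    Nat.card K ≡ Nat.card ↥(K ⊓ centralizer ({x} : Set L)) [MOD r] := by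
  classical
  have hnorm : ∀ g ∈ Subgroup.zpowers x, ∀ a ∈ K, g * a * g⁻¹ ∈ K := fun g hg a ha =>
    (mem_normalizer_iff.1 (Subgroup.zpowers_le.2 hx hg) a).1 ha
  letI : MulAction (Subgroup.zpowers x) K :=
    { smul := fun g a => ⟨(g : L) * a * (g : L)⁻¹, hnorm g g.2 a a.2⟩
      one_smul := fun a => Subtype.ext (show (1 : L) * a * (1 : L)⁻¹ = a by group)
      mul_smul := fun g h a => Subtype.ext
        (show ((g : L) * h) * a * ((g : L) * h)⁻¹ = (g : L) * ((h : L) * a * (h : L)⁻¹) * (g : L)⁻¹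
          by group) }
  have hP : IsPGroup r (Subgroup.zpowers x) :=
    IsPGroup.of_card (n := 1) (by rw [Nat.card_zpowers, ho, pow_one])
  have h := hP.card_modEq_card_fixedPoints K
  suffices Nat.card (MulAction.fixedPoints (Subgroup.zpowers x) K)
      = Nat.card ↥(K ⊓ centralizer ({x} : Set L)) by rwa [this] at h
  refine Nat.card_congr ⟨fun a => ⟨(a.1 : L), a.1.2, mem_centralizer_singleton_iff.2 ?_⟩,
    fun a => ⟨⟨(a : L), a.2.1⟩, ?_⟩, fun a => rfl, fun a => rfl⟩
  · have := congrArg Subtype.val (a.2 ⟨x, Subgroup.mem_zpowers x⟩)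
    exact (mul_inv_eq_iff_eq_mul.1 this).symm
  · intro g
    obtain ⟨i, hi⟩ := Subgroup.mem_zpowers_iff.1 g.2
    refine Subtype.ext ?_
    show (g : L) * (a : L) * (g : L)⁻¹ = a
    have hc : Commute (a : L) x := mem_centralizer_singleton_iff.1 a.2.2
    rw [← hi]
    exact mul_inv_eq_iff_eq_mul.2 (hc.zpow_right i).symm.eq

end CfsgLib.J4Seven39
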