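import Cfsg.Agent.J4Seven39.Final
import Cfsg.Agent.J4Type67.OfType
import Cfsg.Prelude.Def_JankoFourType

/-!
# From the hypothesis block to the configuration
-/

set_option autoImplicit false

namespace CfsgLib.J4Seven39

open Subgroup
open scoped commutatorElement

variable {G : Type*} [Group G] [Finite G]

theorem exists_conf_core {z : G} {P : Subgroup G} (hJ : Cfsg.IsOfJankoFourTypeWith z P) :
    (∀ a ∈ Cfsg.twoCoreOfCentralizer z,
      (∀ b ∈ Cfsg.twoCoreOfCentralizer z, Commute a b) → a = 1 ∨ a = z) ∧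
    (∀ a ∈ Cfsg.twoCoreOfCentralizer z, ∀ b ∈ Cfsg.twoCoreOfCentralizer z,
      a * b * a⁻¹ * b⁻¹ = 1 ∨ a * b * a⁻¹ * b⁻¹ = z) ∧
    centralizer ({z} : Set G) ≤ normalizer (Cfsg.twoCoreOfCentralizer z : Set G) := by
  refine ⟨fun a ha hall => ?_, fun a ha b hb => ?_, fun g hg => ?_⟩
  · exact CfsgLib.J4Type67.center_twoCore hJ (a := ⟨a, ha⟩)
      (Subgroup.mem_center_iff.2 fun b => Subtype.ext (hall b b.2).symm.eq)
  · have hmem : (⁅(⟨a, ha⟩ : ↥(Cfsg.twoCoreOfCentralizer z)), ⟨b, hb⟩⁆) ∈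
        Subgroup.center ↥(Cfsg.twoCoreOfCentralizer z) := by
      rw [← hJ.2.1.1.2.2, _root_.commutator_def]
      exact Subgroup.commutator_mem_commutator (Subgroup.mem_top _) (Subgroup.mem_top _)
    have := CfsgLib.J4Type67.center_twoCore hJ hmem
    simpa [commutatorElement_def] using this
  · rw [mem_normalizer_iff]
    intro x
    constructor
    · rintro ⟨y, hy, rfl⟩
      exact ⟨⟨g, hg⟩ * y * ⟨g, hg⟩⁻¹, (inferInstance : (Cfsg.pCore 2 _).Normal).conj_mem _ hy _, rfl⟩
    · rintro ⟨y, hy, he⟩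
      refine ⟨⟨g, hg⟩⁻¹ * y * ⟨g, hg⟩, ?_, ?_⟩
      · have := (inferInstance : (Cfsg.pCore 2 _).Normal).conj_mem _ hy
          (⟨g, hg⟩⁻¹ : ↥(centralizer ({z} : Set G)))
        rwa [inv_inv] at this
      · simp only [Subgroup.coe_subtype] at he ⊢
        simp only [Subgroup.coe_mul, Subgroup.coe_inv, he]
        group

/-- The statement for the subgroup of order seven, from the facts it rests on. -/
theorem order_seven_structure [IsSimpleGroup G] {z : G} (hJ : Cfsg.IsOfJankoFourTypeAt z)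
    {S : Subgroup G} (hS : Nat.card ↥S = 7) (hSz : S ≤ centralizer ({z} : Set G))
    (h63 : ∀ P : Subgroup G, Cfsg.IsOfJankoFourTypeWith z P →
      normalizer (P : Set G) ≤ centralizer ({z} : Set G))
    (h64 : ∀ x y : G, orderOf x = 3 → orderOf y = 3 → IsConj x y)
    (h68 : ∀ V : Subgroup G, Cfsg.IsElementaryAbelian 2 V → Nat.card ↥V = 2 ^ 11 →
      ∃ t : G, t ∈ V ∧ t ≠ 1 ∧ ¬ IsConj z t)
    (h69 : ∀ t : G, orderOf t = 2 → ¬ IsConj z t → ∃ V K : Subgroup G, TData t V K) :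
    ¬ (49 ∣ Nat.card G) ∧
    (∃ I : Subgroup G, Cfsg.IsInternalDirectProduct S I (centralizer (S : Set G)) ∧
      Nonempty (↥I ≃* Equiv.Perm (Fin 5))) ∧
    Nat.card ↥(normalizer (S : Set G)) = 3 * Nat.card ↥(centralizer (S : Set G)) ∧
    Nat.card ↥(normalizer (S : Set G)) = 2 ^ 3 * 3 ^ 2 * 5 * 7 := by
  obtain ⟨P, hJP⟩ := hJ
  obtain ⟨hcen, hcomm, hEn⟩ := exists_conf_core hJP
  have hPn := h63 P hJP
  have hJP' := hJP
  obtain ⟨hz, -, hEcard, hCE, ⟨N, hEN, hNH, hNn, hNcard, ⟨hNN, ⟨e⟩⟩, hPN⟩, hP3, hEP, -, -⟩ := hJP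
  have : Fact (Nat.Prime 3) := ⟨by norm_num⟩
  have : Fact (Nat.Prime 7) := ⟨by norm_num⟩
  have : Fact (Nat.Prime 2) := ⟨Nat.prime_two⟩
  obtain ⟨s', hs'⟩ := exists_prime_orderOf_dvd_card' (G := ↥S) 7 (by rw [hS])
  have hs : orderOf (s' : G) = 7 := (Subgroup.orderOf_coe s').trans hs'
  have hSeq : S = Subgroup.zpowers (s' : G) :=
    (Subgroup.eq_of_le_of_card_ge (Subgroup.zpowers_le.2 s'.2)
      (by rw [Nat.card_zpowers, hs, hS])).symm
  obtain ⟨p', hp'⟩ := exists_prime_orderOf_dvd_card' (G := ↥P) 3 (by rw [hP3])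
  have hp : orderOf (p' : G) = 3 := (Subgroup.orderOf_coe p').trans hp'
  have hPeq : P = Subgroup.zpowers (p' : G) :=
    (Subgroup.eq_of_le_of_card_ge (Subgroup.zpowers_le.2 p'.2)
      (by rw [Nat.card_zpowers, hp, hP3])).symm
  have hCP : centralizer (P : Set G) = centralizer ({(p' : G)} : Set G) := by
    conv_lhs => rw [hPeq]
    exact centralizer_zpowers _
  obtain ⟨T⟩ : Nonempty (Sylow 2 G) := inferInstance
  obtain ⟨V₀, ⟨-, hV₀, hV₀c⟩, -⟩ := CfsgLib.J4Type67.existsUnique_sylow hJP' T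
  obtain ⟨t, htV, ht1, htn⟩ := h68 V₀ hV₀ hV₀c
  let c : Conf G :=
    { z := z, s := (s' : G), p₀ := (p' : G), E := Cfsg.twoCoreOfCentralizer z, N := N
      hz := hz, hs := hs
      hsz := mem_centralizer_singleton_iff.1 (hSz s'.2)
      hp₀ := hp
      hEN := hEN, hNH := hNH, hEn := hEn, hNn := hNn, hEcard := hEcard
      hNcard := by rw [hNcard, hEcard]
      hquot := ⟨e.toMonoidHom.comp (QuotientGroup.mk' _),
        e.surjective.comp (QuotientGroup.mk'_surjective _), by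
          ext x
          simp [MonoidHom.mem_ker, QuotientGroup.eq_one_iff]⟩
      hCE := fun x hx hall => hCE ⟨mem_centralizer_singleton_iff.2 hx.eq,
        Subgroup.mem_centralizer_iff.2 fun y hy => (hall y hy).symm.eq⟩
      hcenter := hcen, hcomm := hcomm
      hpN := hPN p'.2
      hEp := fun x => by
        have h := SetLike.ext_iff.1 hEP x
        rw [hCP, Subgroup.mem_inf, mem_centralizer_singleton_iff] at h
        refine (h : (x ∈ Cfsg.twoCoreOfCentralizer z ∧ Commute x (p' : G)) ↔ _).trans ?_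
        constructor
        · intro hx
          obtain ⟨i, rfl⟩ := Subgroup.mem_zpowers_iff.1 hx
          rcases Int.even_or_odd i with ⟨k, rfl⟩ | ⟨k, rfl⟩
          · left
            rw [← two_mul, zpow_mul, zpow_two, ← pow_two, ← hz, pow_orderOf_eq_one, one_zpow]
          · right
            rw [zpow_add_one, zpow_mul, zpow_two, ← pow_two, ← hz, pow_orderOf_eq_one, one_zpow,
              one_mul]
        · rintro (rfl | rfl)
          · exact one_mem _
          · exact Subgroup.mem_zpowers _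
      hpC := fun x hx => hPn (by
        suffices h : x ∈ normalizer (Subgroup.zpowers (p' : G) : Set G) by rwa [← hPeq] at h
        refine mem_normalizer_zpowers ?_
        rw [mul_inv_eq_iff_eq_mul.2 (mem_centralizer_singleton_iff.1 hx)]
        exact Subgroup.mem_zpowers _)
      three := fun q hq => h64 _ q hp hq
      tex := ⟨t, orderOf_eq_prime (hV₀.2 t htV) ht1, htn⟩
      tcent := h69
      elem_unique := fun T' V V' h1 h2 h3 h4 h5 h6 =>
        (CfsgLib.J4Type67.existsUnique_sylow hJP' T').unique ⟨h1, h2, h3⟩ ⟨h4, h5, h6⟩ }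
  rw [hSeq]
  exact c.conclusion

end CfsgLib.J4Seven39
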